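import Mathlib
import Cfsg.Agent.H875.SpMcL
import Cfsg.Agent.H879.QuadPair
import Cfsg.Agent.H880.TI
import Cfsg.Agent.H924.TenWrap
set_option linter.all false

-- part: H875/TenW
section
/-!
# Siegel isometries acting on self-adjoint and skew operators of an orthogonal space

`W` with a non-degenerate symmetric bilinear form `B`, characteristic not two. `Eg B s a` is the
Siegel isometry `w ↦ w + B(w,s) a - B(w,a) s - ½ B(a,a) B(w,s) s`.
A space of operators stable under conjugation by Siegel isometries, containing the identity and a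
self-adjoint non-scalar operator, contains the rank one operators `w ↦ B(w,s) s`, `s` singular.
-/

set_option autoImplicit false
set_option linter.unusedSimpArgs false

namespace Cfsg.Agent.H875.Ten

variable {F : Type*} [Field F] {W : Type*} [AddCommGroup W] [Module F W]

/-- The rank one operator `w ↦ B(w,s) t`. -/
def rk (B : LinearMap.BilinForm F W) (s t : W) : W →ₗ[F] W :=
  LinearMap.smulRight (B.flip s) t

theorem rk_apply (B : LinearMap.BilinForm F W) (s t w : W) : rk B s t w = B w s • t := rfl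

/-- The Siegel isometry. -/
def Eg (B : LinearMap.BilinForm F W) (s a : W) : W →ₗ[F] W :=
  LinearMap.id + rk B s a - rk B a s - (B a a / 2) • rk B s s

theorem Eg_apply (B : LinearMap.BilinForm F W) (s a w : W) :
    Eg B s a w = w + B w s • a - B w a • s - (B a a / 2) • B w s • s := rfl

/-- A non-degenerate symmetric form. -/
structure SymB (B : LinearMap.BilinForm F W) : Prop where
  symm : ∀ x y, B x y = B y x
  nd : ∀ x, (∀ y, B x y = 0) → x = 0

variable {B : LinearMap.BilinForm F W}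

theorem Eg_inv (h2 : (2 : F) ≠ 0) (hB : SymB B) {s a : W} (hs : B s s = 0) (ha : B a s = 0)
    (w : W) : Eg B s a (Eg B s (-a) w) = w := by
  have ha' : B s a = 0 := by rw [hB.symm]; exact ha
  simp only [Eg_apply, map_add, map_sub, map_neg, map_smul, LinearMap.add_apply,
    LinearMap.sub_apply, LinearMap.neg_apply, LinearMap.smul_apply, smul_eq_mul, hs, ha, ha',
    mul_zero, neg_zero, add_zero, sub_zero, neg_neg, zero_smul, smul_zero, neg_mul, mul_neg]
  rw [← sub_eq_zero]
  match_scalars <;> field_simp <;> ring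

theorem Eg_isom (h2 : (2 : F) ≠ 0) (hB : SymB B) {s a : W} (hs : B s s = 0) (ha : B a s = 0)
    (w w' : W) : B (Eg B s a w) (Eg B s a w') = B w w' := by
  have ha' : B s a = 0 := by rw [hB.symm]; exact ha
  simp only [Eg_apply, map_add, map_sub, map_smul, LinearMap.add_apply,
    LinearMap.sub_apply, LinearMap.smul_apply, smul_eq_mul, hs, ha, ha', hB.symm s w',
    hB.symm a w']
  field_simp
  ring

theorem exists_partner (hB : SymB B) {s : W} (hs : s ≠ 0) : ∃ p, B p s = 1 := by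
  obtain ⟨y, hy⟩ : ∃ y, B s y ≠ 0 := by
    by_contra hcon
    push Not at hcon
    exact hs (hB.nd s hcon)
  exact ⟨(B s y)⁻¹ • y, by rw [map_smul, LinearMap.smul_apply, smul_eq_mul, hB.symm y s,
    inv_mul_cancel₀ hy]⟩

/-- The double orthogonal of a line. -/
theorem mem_line_of_orth (hB : SymB B) {s z : W} (hs : s ≠ 0)
    (h : ∀ a, B a s = 0 → B a z = 0) : ∃ c : F, z = c • s := by
  obtain ⟨p, hp⟩ := exists_partner hB hs
  refine ⟨B p z, ?_⟩
  have key : ∀ w, B w (z - B p z • s) = 0 := by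
    intro w
    have h1 := h (w - B w s • p) (by
      rw [map_sub, map_smul, LinearMap.sub_apply, LinearMap.smul_apply, smul_eq_mul, hp, mul_one,
        sub_self])
    rw [map_sub, map_smul, LinearMap.sub_apply, LinearMap.smul_apply, smul_eq_mul] at h1
    rw [map_sub, map_smul, smul_eq_mul]
    linear_combination h1
  have h2 : z - B p z • s = 0 := hB.nd _ (fun w => by rw [hB.symm]; exact key w)
  exact sub_eq_zero.1 h2

/-- A space of operators containing the scalars, stable under Siegel isometries. -/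
structure OpSet (B : LinearMap.BilinForm F W) (P : (W →ₗ[F] W) → Prop) : Prop where
  add : ∀ {S T}, P S → P T → P (S + T)
  smul : ∀ (c : F) {S}, P S → P (c • S)
  one : P LinearMap.id
  conj : ∀ {s a : W}, B s s = 0 → B a s = 0 → ∀ {S}, P S → P (Eg B s a ∘ₗ S ∘ₗ Eg B s (-a))

/-- Self-adjoint operators. -/
def SA (B : LinearMap.BilinForm F W) (S : W →ₗ[F] W) : Prop := ∀ x y, B (S x) y = B x (S y)

/-- The difference `E S E⁻¹ - S`. -/
def dd (B : LinearMap.BilinForm F W) (s a : W) (S : W →ₗ[F] W) : W →ₗ[F] W :=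
  Eg B s a ∘ₗ S ∘ₗ Eg B s (-a) - S

theorem dd_apply (B : LinearMap.BilinForm F W) (s a : W) (S : W →ₗ[F] W) (w : W) :
    dd B s a S w = Eg B s a (S (Eg B s (-a) w)) - S w := rfl

variable {P : (W →ₗ[F] W) → Prop}

theorem OpSet.sub (hP : OpSet B P) {S T : W →ₗ[F] W} (hS : P S) (hT : P T) : P (S - T) := by
  have := hP.add hS (hP.smul (-1) hT)
  rwa [neg_one_smul, ← sub_eq_add_neg] at this

theorem OpSet.dd (hP : OpSet B P) {s a : W} (hs : B s s = 0) (ha : B a s = 0) {S : W →ₗ[F] W}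
    (hS : P S) : P (dd B s a S) := hP.sub (hP.conj hs ha hS) hS

theorem SA.dd (h2 : (2 : F) ≠ 0) (hB : SymB B) {s a : W} (hs : B s s = 0) (ha : B a s = 0)
    {S : W →ₗ[F] W} (hS : SA B S) : SA B (dd B s a S) := by
  intro x y
  have ha2 : B (-a) s = 0 := by rw [map_neg, LinearMap.neg_apply, ha, neg_zero]
  have h1 : ∀ x y, B (Eg B s a x) y = B x (Eg B s (-a) y) := by
    intro x y
    have e := Eg_inv h2 hB hs ha y
    conv_lhs => rw [← e]
    rw [Eg_isom h2 hB hs ha]
  have h3 : ∀ x y, B (Eg B s (-a) x) y = B x (Eg B s a y) := by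
    intro x y
    have e := Eg_inv h2 hB hs ha2 y
    rw [neg_neg] at e
    conv_lhs => rw [← e]
    rw [Eg_isom h2 hB hs ha2]
  rw [dd_apply, dd_apply, map_sub, LinearMap.sub_apply, map_sub, h1, hS, h3, hS x y]

/-- The difference when `s` is an eigenvector. -/
theorem dd_of_eigen (h2 : (2 : F) ≠ 0) (hB : SymB B) {s a : W} (hs : B s s = 0)
    (ha : B a s = 0) {S : W →ₗ[F] W} (hS : SA B S) {μ : F} (hSs : S s = μ • s) :
    dd B s a S = (B (S a - μ • a) a) • rk B s s -
      (rk B s (S a - μ • a) + rk B (S a - μ • a) s) := by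
  have ha' : B s a = 0 := by rw [hB.symm]; exact ha
  apply LinearMap.ext
  intro w
  have e1 : B (S w) s = μ * B w s := by
    rw [hS, hSs, map_smul, smul_eq_mul]
  have e2 : B (S a) s = 0 := by
    rw [hS, hSs, map_smul, smul_eq_mul, ha, mul_zero]
  have e3 : B (S w) a = B w (S a) := hS w a
  have e4 : B w (S a - μ • a) = B w (S a) - μ * B w a := by
    rw [map_sub, map_smul, smul_eq_mul]
  simp only [dd_apply, Eg_apply, map_add, map_sub, map_neg, map_smul, LinearMap.add_apply,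
    LinearMap.sub_apply, LinearMap.neg_apply, LinearMap.smul_apply, smul_eq_mul, hs, ha, ha',
    hSs, rk_apply, e1, e2, e3, mul_zero, neg_zero, add_zero, sub_zero, neg_neg,
    zero_smul, smul_zero, neg_mul, mul_neg]
  match_scalars <;> field_simp <;> ring

/-- An operator of the space having `s` as an eigenvector is scalar, if `w ↦ B(w,s) s` is not in
the space. -/
theorem scalar_of_eigen (h2 : (2 : F) ≠ 0) (hB : SymB B) (hP : OpSet B P) {s : W} (hs0 : s ≠ 0)
    (hs : B s s = 0) (hns : ¬ P (rk B s s)) {S : W →ₗ[F] W} (hS : SA B S) (hSP : P S) {μ : F}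
    (hSs : S s = μ • s) : S = μ • LinearMap.id := by
  have hz : ∀ c : F, P (c • rk B s s) → c = 0 := by
    intro c hc
    by_contra hc0
    apply hns
    have := hP.smul c⁻¹ hc
    rwa [smul_smul, inv_mul_cancel₀ hc0, one_smul] at this
  -- `S a - μ a` is a multiple of `s`
  have h3 : ∀ a, B a s = 0 → S a = μ • a := by
    intro a ha
    set z := S a - μ • a with hzdef
    have hzs : B z s = 0 := by
      rw [hzdef, map_sub, LinearMap.sub_apply, hS, hSs, map_smul, map_smul, LinearMap.smul_apply,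
        sub_self]
    have hsz : B s z = 0 := by rw [hB.symm]; exact hzs
    set T := dd B s a S with hT
    have hTP : P T := hP.dd hs ha hSP
    have hTe := dd_of_eigen h2 hB hs ha hS hSs
    rw [← hzdef] at hTe
    have hTs : T s = (0 : F) • s := by
      rw [hT, hTe]
      simp [rk_apply, hs, hsz]
    have hTSA : SA B T := SA.dd h2 hB hs ha hS
    have h4 : ∀ a', B a' s = 0 → B a' z = 0 := by
      intro a' ha'
      have h5 := hP.dd hs ha' hTP
      rw [dd_of_eigen h2 hB hs ha' hTSA hTs] at h5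
      have h6 : T a' - (0 : F) • a' = (-(B a' z)) • s := by
        rw [hT, hTe]
        simp only [LinearMap.sub_apply, LinearMap.smul_apply, LinearMap.add_apply, rk_apply, ha',
          zero_smul, smul_zero]
        module
      have h7 : (B (T a' - (0 : F) • a') a') • rk B s s -
          (rk B s (T a' - (0 : F) • a') + rk B (T a' - (0 : F) • a') s) =
          (2 * B a' z) • rk B s s := by
        rw [h6]
        apply LinearMap.ext
        intro w
        simp only [LinearMap.sub_apply, LinearMap.smul_apply, LinearMap.add_apply, rk_apply,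
          map_smul, LinearMap.smul_apply, smul_eq_mul, hB.symm s a', ha', mul_zero]
        module
      rw [h7] at h5
      have h8 := hz _ h5
      exact (mul_eq_zero.1 h8).resolve_left h2
    obtain ⟨ν, hν⟩ := mem_line_of_orth hB hs0 h4
    have h9 : T = (-(2 * ν)) • rk B s s := by
      rw [hT, hTe, hν]
      apply LinearMap.ext
      intro w
      simp only [LinearMap.sub_apply, LinearMap.smul_apply, LinearMap.add_apply, rk_apply,
        map_smul, smul_eq_mul, hB.symm s a, ha, mul_zero]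
      module
    rw [h9] at hTP
    have h10 := hz _ hTP
    have h11 : ν = 0 := by
      have : 2 * ν = 0 := neg_eq_zero.1 h10
      exact (mul_eq_zero.1 this).resolve_left h2
    rw [h11, zero_smul] at hν
    exact sub_eq_zero.1 hν
  obtain ⟨p, hp⟩ := exists_partner hB hs0
  obtain ⟨c, hc⟩ := mem_line_of_orth hB hs0 (z := S p - μ • p) (by
    intro a ha
    rw [map_sub, map_smul, ← hS, h3 a ha, map_smul, LinearMap.smul_apply, sub_self])
  have h4 : S - μ • LinearMap.id = c • rk B s s := by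
    apply LinearMap.ext
    intro w
    have e : w = (w - B w s • p) + B w s • p := by abel
    have h5 : S (w - B w s • p) = μ • (w - B w s • p) := by
      apply h3
      rw [map_sub, map_smul, LinearMap.sub_apply, LinearMap.smul_apply, smul_eq_mul, hp, mul_one,
        sub_self]
    have h6 : S p = μ • p + c • s := by rw [← hc]; abel
    have h7 : S w = μ • (w - B w s • p) + B w s • (μ • p + c • s) := by
      conv_lhs => rw [e]
      rw [map_add, h5, map_smul, h6]
    rw [LinearMap.sub_apply, h7, LinearMap.smul_apply, LinearMap.smul_apply, rk_apply,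
      LinearMap.id_apply]
    module
  have h5 : P (c • rk B s s) := by
    rw [← h4]
    exact hP.sub hSP (hP.smul μ hP.one)
  rw [hz c h5, zero_smul] at h4
  exact sub_eq_zero.1 h4

/-- The difference on `s`. -/
theorem dd_self (hB : SymB B) {s a : W} (hs : B s s = 0) (ha : B a s = 0) (S : W →ₗ[F] W) :
    dd B s a S s = B (S s) s • a - B (S s) a • s - (B a a / 2) • B (S s) s • s := by
  have ha' : B s a = 0 := by rw [hB.symm]; exact ha
  rw [dd_apply]
  have e : Eg B s (-a) s = s := by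
    simp only [Eg_apply, map_neg, hs, ha', neg_zero, zero_smul, smul_zero, add_zero, sub_zero]
  rw [e, Eg_apply]
  abel

/-- The difference on `s^⊥`, when `S s ∈ s^⊥`. -/
theorem dd_orth (hB : SymB B) {s a : W} (hs : B s s = 0) (ha : B a s = 0)
    {S : W →ₗ[F] W} (hS : SA B S) (hy : B (S s) s = 0) {w : W} (hw : B w s = 0) :
    dd B s a S w = B w a • S s + B w (S s) • a -
      (B (S w) a + B w a * B (S s) a + B a a / 2 * B w (S s)) • s := by
  have ha' : B s a = 0 := by rw [hB.symm]; exact ha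
  have e3 : B (S w) s = B w (S s) := hS w s
  simp only [dd_apply, Eg_apply, map_add, map_sub, map_neg, map_smul, LinearMap.add_apply,
    LinearMap.sub_apply, LinearMap.neg_apply, LinearMap.smul_apply, smul_eq_mul, hs, ha, ha',
    hy, hw, e3, mul_zero, neg_zero, add_zero, sub_zero, neg_neg,
    zero_smul, smul_zero, neg_mul, mul_neg]
  module

/-- Every operator of the space is scalar if `w ↦ B(w,s) s` is not in it. -/
theorem eigen_of_not (h2 : (2 : F) ≠ 0) (hB : SymB B) (hP : OpSet B P)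
    [FiniteDimensional F W] (hdim : 3 ≤ Module.finrank F W)
    (hq : Module.finrank F W = 3 → ∃ t : F, t ≠ 0 ∧ t ^ 2 ≠ 1) {s : W} (hs0 : s ≠ 0)
    (hs : B s s = 0) (hns : ¬ P (rk B s s)) {S : W →ₗ[F] W} (hS : SA B S) (hSP : P S)
    (hy : B (S s) s = 0) : ∃ μ : F, S s = μ • s := by
  by_contra hcon
  push Not at hcon
  set y := S s with hydef
  -- `dd B s a S` is scalar
  have h1 : ∀ a, B a s = 0 → dd B s a S = (-(B y a)) • LinearMap.id := by
    intro a ha
    apply scalar_of_eigen h2 hB hP hs0 hs hns (SA.dd h2 hB hs ha hS) (hP.dd hs ha hSP)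
    rw [dd_self hB hs ha, ← hydef, hy, zero_smul, zero_smul, smul_zero, zero_sub, sub_zero,
      neg_smul]
  have h3 : ∀ a w, B a s = 0 → B w s = 0 → ∃ c : F, B w a • y + B w y • a + B y a • w = c • s := by
    intro a w ha hw
    have e1 := congrArg (fun L : W →ₗ[F] W => L w) (h1 a ha)
    simp only [LinearMap.smul_apply, LinearMap.id_apply] at e1
    rw [dd_orth hB hs ha hS hy hw, ← hydef] at e1
    refine ⟨B (S w) a + B w a * B y a + B a a / 2 * B w y, ?_⟩
    have : B w a • y + B w y • a + B y a • w =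
        (B w a • y + B w y • a - (B (S w) a + B w a * B y a + B a a / 2 * B w y) • s) +
          B y a • w + (B (S w) a + B w a * B y a + B a a / 2 * B w y) • s := by abel
    rw [this, e1]
    module
  -- a vector of `s^⊥ ∩ y^⊥` outside the line of `s`
  by_cases hex : ∃ a, B a s = 0 ∧ B a y = 0 ∧ ∀ c : F, a ≠ c • s
  · obtain ⟨a, ha, hay, han⟩ := hex
    obtain ⟨w, hw, hwa⟩ : ∃ w, B w s = 0 ∧ B w a ≠ 0 := by
      by_contra hc
      push Not at hc
      obtain ⟨c, hc'⟩ := mem_line_of_orth hB hs0 hc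
      exact han c hc'
    have hya : B y a = 0 := by rw [hB.symm]; exact hay
    obtain ⟨c, hc⟩ := h3 a w ha hw
    rw [hya, zero_smul, add_zero] at hc
    -- pair with `a`
    have e1 := congrArg (fun x => B x a) hc
    simp only [map_add, map_smul, LinearMap.add_apply, LinearMap.smul_apply, smul_eq_mul] at e1
    rw [hya, hB.symm s a, ha, mul_zero, mul_zero, zero_add] at e1
    -- pair with `w`
    have e2 := congrArg (fun x => B x w) hc
    simp only [map_add, map_smul, LinearMap.add_apply, LinearMap.smul_apply, smul_eq_mul] at e2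
    rw [hB.symm y w, hB.symm a w, hB.symm s w, hw] at e2
    have e3 : B w y = 0 := by
      have : 2 * B w a * B w y = 0 := by linear_combination e2
      rcases mul_eq_zero.1 this with h | h
      · rcases mul_eq_zero.1 h with h | h
        · exact absurd h h2
        · exact absurd h hwa
      · exact h
    rw [e3, zero_smul, add_zero] at hc
    apply hcon ((B w a)⁻¹ * c)
    rw [mul_smul, ← hc, smul_smul, inv_mul_cancel₀ hwa, one_smul]
  · -- dimension three
    push Not at hex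
    have hd3 : Module.finrank F W = 3 := by
      by_contra hne
      let L : W →ₗ[F] (Fin 2 → F) := LinearMap.pi ![B.flip s, B.flip y]
      have h4 : Module.finrank F (LinearMap.range L) ≤ 2 := by
        calc _ ≤ Module.finrank F (Fin 2 → F) := Submodule.finrank_le _
          _ = 2 := by simp
      have h5 := LinearMap.finrank_range_add_finrank_ker L
      have h6 : 2 ≤ Module.finrank F (LinearMap.ker L) := by omega
      have h7 : LinearMap.ker L ≤ Submodule.span F {s} := by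
        intro a ha
        rw [LinearMap.mem_ker] at ha
        have ha1 : B a s = 0 := congrFun ha 0
        have ha2 : B a y = 0 := congrFun ha 1
        obtain ⟨c, hc⟩ := hex a ha1 ha2
        rw [hc]
        exact Submodule.smul_mem _ _ (Submodule.mem_span_singleton_self s)
      have h8 := Submodule.finrank_mono h7
      have h9 := finrank_span_le_card (R := F) ({s} : Set W)
      simp only [Set.toFinset_singleton, Finset.card_singleton] at h9
      omega
    obtain ⟨t, ht0, ht⟩ := hq hd3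
    -- a hyperbolic partner
    obtain ⟨p, hps, hpp⟩ : ∃ p, B p s = 1 ∧ B p p = 0 := by
      obtain ⟨p₀, hp₀⟩ := exists_partner hB hs0
      have hsp₀ : B s p₀ = 1 := by rw [hB.symm]; exact hp₀
      refine ⟨p₀ - (B p₀ p₀ / 2) • s, ?_, ?_⟩
      · rw [map_sub, map_smul, LinearMap.sub_apply, LinearMap.smul_apply, hp₀, hs, smul_zero,
          sub_zero]
      · simp only [map_sub, map_smul, LinearMap.sub_apply, LinearMap.smul_apply, smul_eq_mul, hp₀,
          hsp₀, hs]
        field_simp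
        ring
    have hsp : B s p = 1 := by rw [hB.symm]; exact hps
    have hys : B y s = 0 := hy
    -- the component of `y`
    obtain ⟨e, hedef⟩ : ∃ e, y = e + B y p • s := ⟨y - B y p • s, by abel⟩
    have hes : B e s = 0 := by
      have h4 : B (e + B y p • s) s = 0 := by rw [← hedef]; exact hys
      rw [map_add, map_smul, LinearMap.add_apply, LinearMap.smul_apply, hs, smul_zero,
        add_zero] at h4
      exact h4
    have hep : B e p = 0 := by
      have h4 : B (e + B y p • s) p = B y p := by rw [← hedef]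
      rw [map_add, map_smul, LinearMap.add_apply, LinearMap.smul_apply, hsp, smul_eq_mul,
        mul_one] at h4
      linear_combination h4
    have he0 : e ≠ 0 := fun h => hcon (B y p) (by rw [h, zero_add] at hedef; exact hedef)
    have hey : B e y = B e e := by
      conv_lhs => rw [hedef]
      rw [map_add, map_smul, hes, smul_zero, add_zero]
    have hee : B e e ≠ 0 := by
      intro h
      obtain ⟨c, hc⟩ := hex e hes (by rw [hey, h])
      apply he0
      have h4 : B e p = c := by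
        rw [hc, map_smul, LinearMap.smul_apply, hsp, smul_eq_mul, mul_one]
      rw [hep] at h4
      rw [hc, ← h4, zero_smul]
    -- the value of `dd` at `p`, paired with `p`
    have key : ∀ α : F, -(2 * α * B (S p) e) - α ^ 2 * B e e * B p y + α ^ 2 * B (S e) e +
        α ^ 3 * (B e e * B e y) = 0 := by
      intro α
      have ha : B (α • e) s = 0 := by rw [map_smul, LinearMap.smul_apply, hes, smul_zero]
      have e1 := congrArg (fun L : W →ₗ[F] W => B (L p) p) (h1 _ ha)
      simp only [LinearMap.smul_apply, LinearMap.id_apply, map_smul, hpp, smul_zero] at e1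
      have hpe : B p e = 0 := by rw [hB.symm]; exact hep
      have hse : B s e = 0 := by rw [hB.symm]; exact hes
      have e2 : Eg B s (-(α • e)) p = p - α • e - (α ^ 2 * B e e / 2) • s := by
        simp only [Eg_apply, map_neg, map_smul, LinearMap.neg_apply, LinearMap.smul_apply,
          smul_eq_mul, hps, hpe, mul_zero, neg_zero, zero_smul, sub_zero, one_smul]
        match_scalars <;> ring
      have e3 : B (Eg B s (α • e) (S (Eg B s (-(α • e)) p))) p =
          B (S (Eg B s (-(α • e)) p)) (Eg B s (-(α • e)) p) := by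
        have hαs : B (α • e) s = 0 := ha
        conv_lhs => rw [← Eg_inv h2 hB hs hαs p]
        rw [Eg_isom h2 hB hs hαs]
        rw [Eg_inv h2 hB hs hαs p]
      rw [dd_apply, map_sub, LinearMap.sub_apply, e3, e2] at e1
      have f1 : B (S e) p = B (S p) e := by rw [hS, hB.symm]
      have f2 : B (S s) p = B p y := hB.symm _ _
      have f3 : B (S p) s = B p y := hS p s
      have f4 : B (S s) e = B e y := hB.symm _ _
      have f5 : B (S e) s = B e y := hS e s
      simp only [map_sub, map_smul, LinearMap.sub_apply, LinearMap.smul_apply, smul_eq_mul, f1,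
        f2, f3, f4, f5, ← hydef, hys, hB.symm y p, hB.symm y e] at e1
      have h22 : (2 : F)⁻¹ * 2 = 1 := inv_mul_cancel₀ h2
      linear_combination e1 + (α ^ 2 * B e e * B p y - α ^ 3 * B e e * B e y) * h22
    have k1 := key 1
    have k2 := key (-1)
    have k3 := key t
    have c2 : -(B e e * B p y) + B (S e) e = 0 := by
      have : 2 * (-(B e e * B p y) + B (S e) e) = 0 := by linear_combination k1 + k2
      exact (mul_eq_zero.1 this).resolve_left h2
    have c1 : -(2 * B (S p) e) + B e e * B e y = 0 := by linear_combination k1 - c2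
    have c3 : t * (t ^ 2 - 1) * (B e e * B e y) = 0 := by
      linear_combination k3 - t ^ 2 * c2 - t * c1
    rcases mul_eq_zero.1 c3 with h | h
    · rcases mul_eq_zero.1 h with h | h
      · exact ht0 h
      · exact ht (sub_eq_zero.1 h)
    · rw [hey] at h
      rcases mul_eq_zero.1 h with h | h
      · exact hee h
      · exact hee h

/-- Every operator of the space is scalar if `w ↦ B(w,s) s` is not in it. -/
theorem scalar_of_not (h2 : (2 : F) ≠ 0) (hB : SymB B) (hP : OpSet B P)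
    [FiniteDimensional F W] (hdim : 3 ≤ Module.finrank F W)
    (hq : Module.finrank F W = 3 → ∃ t : F, t ≠ 0 ∧ t ^ 2 ≠ 1) {s : W} (hs0 : s ≠ 0)
    (hs : B s s = 0) (hns : ¬ P (rk B s s)) {S : W →ₗ[F] W} (hS : SA B S) (hSP : P S) :
    ∃ μ : F, S = μ • LinearMap.id := by
  by_cases hy : B (S s) s = 0
  · obtain ⟨μ, hμ⟩ := eigen_of_not h2 hB hP hdim hq hs0 hs hns hS hSP hy
    exact ⟨μ, scalar_of_eigen h2 hB hP hs0 hs hns hS hSP hμ⟩
  · exfalso
    obtain ⟨a, ha, han⟩ : ∃ a, B a s = 0 ∧ ∀ c : F, a ≠ c • s := by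
      by_contra hc
      push Not at hc
      have h5 := LinearMap.finrank_range_add_finrank_ker (B.flip s)
      have h4 : Module.finrank F (LinearMap.range (B.flip s)) ≤ 1 := by
        calc _ ≤ Module.finrank F F := Submodule.finrank_le _
          _ = 1 := Module.finrank_self F
      have h7 : LinearMap.ker (B.flip s) ≤ Submodule.span F {s} := by
        intro a ha
        rw [LinearMap.mem_ker] at ha
        obtain ⟨c, hc⟩ := hc a ha
        rw [hc]
        exact Submodule.smul_mem _ _ (Submodule.mem_span_singleton_self s)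
      have h8 := Submodule.finrank_mono h7
      have h9 := finrank_span_le_card (R := F) ({s} : Set W)
      simp only [Set.toFinset_singleton, Finset.card_singleton] at h9
      omega
    have ha' : B s a = 0 := by rw [hB.symm]; exact ha
    have e1 := dd_self hB hs ha S
    obtain ⟨μ, hμ⟩ := eigen_of_not h2 hB hP hdim hq hs0 hs hns (SA.dd h2 hB hs ha hS)
      (hP.dd hs ha hSP) (by
        rw [e1]
        simp only [map_sub, map_smul, LinearMap.sub_apply, LinearMap.smul_apply, ha, hs, smul_zero,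
          sub_zero])
    rw [e1] at hμ
    apply han ((B (S s) s)⁻¹ * (μ + B (S s) a + B a a / 2 * B (S s) s))
    rw [mul_smul]
    have : (μ + B (S s) a + B a a / 2 * B (S s) s) • s = B (S s) s • a := by
      have e2 : B (S s) s • a = (B (S s) s • a - B (S s) a • s - (B a a / 2) • B (S s) s • s) +
        (B (S s) a + B a a / 2 * B (S s) s) • s := by module
      rw [e2, hμ]
      module
    rw [this, smul_smul, inv_mul_cancel₀ hy, one_smul]

end Cfsg.Agent.H875.Ten
end

-- part: H875/TenSkew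
section
/-!
# Skew operators with scalar anticommutators

`W` with a non-degenerate symmetric bilinear form of dimension at least three having a singular
vector, characteristic not two. A set of operators closed under differences and conjugation by
isometries, any two members of which have a scalar anticommutator, contains no non-zero skew
operator.
-/

set_option autoImplicit false
set_option linter.unusedSimpArgs false

namespace Cfsg.Agent.H875.Ten

variable {F : Type*} [Field F] {W : Type*} [AddCommGroup W] [Module F W]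
variable {B : LinearMap.BilinForm F W}

/-- The reflection in `v`. -/
def rf (B : LinearMap.BilinForm F W) (v : W) : W →ₗ[F] W :=
  LinearMap.id - (2 / B v v) • rk B v v

theorem rf_apply (v w : W) : rf B v w = w - (2 / B v v) • B w v • v := rfl

theorem rf_isom (hB : SymB B) {v : W} (hv : B v v ≠ 0) (w w' : W) :
    B (rf B v w) (rf B v w') = B w w' := by
  simp only [rf_apply, map_sub, map_smul, LinearMap.sub_apply, LinearMap.smul_apply, smul_eq_mul,
    hB.symm v w']
  field_simp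
  ring

theorem rf_rf {v : W} (hv : B v v ≠ 0) (w : W) : rf B v (rf B v w) = w := by
  simp only [rf_apply, map_sub, map_smul, LinearMap.sub_apply, LinearMap.smul_apply, smul_eq_mul]
  match_scalars <;> field_simp <;> ring

/-- The operator `w ↦ B(w,s) z - B(w,z) s`. -/
def wd (B : LinearMap.BilinForm F W) (s z : W) : W →ₗ[F] W := rk B s z - rk B z s

theorem wd_apply (s z w : W) : wd B s z w = B w s • z - B w z • s := rfl

/-- A set of operators closed under differences and conjugation by isometries. -/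
structure SkewSet (B : LinearMap.BilinForm F W) (Q : (W →ₗ[F] W) → Prop) : Prop where
  sub : ∀ {K L}, Q K → Q L → Q (K - L)
  conj : ∀ (y y' : W →ₗ[F] W), (∀ w w', B (y w) (y w') = B w w') → (∀ w, y (y' w) = w) →
    (∀ w, y' (y w) = w) → ∀ {K}, Q K → Q (y ∘ₗ K ∘ₗ y')

variable {Q : (W →ₗ[F] W) → Prop}

theorem SkewSet.neg (hQ : SkewSet B Q) {K : W →ₗ[F] W} (hK : Q K) : Q (-K) := by
  have h0 : Q (K - K) := hQ.sub hK hK
  have := hQ.sub h0 hK
  rwa [sub_self, zero_sub] at this

theorem SkewSet.dd (h2 : (2 : F) ≠ 0) (hB : SymB B) (hQ : SkewSet B Q) {s a : W}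
    (hs : B s s = 0) (ha : B a s = 0) {K : W →ₗ[F] W} (hK : Q K) : Q (dd B s a K) := by
  apply hQ.sub _ hK
  have ha2 : B (-a) s = 0 := by rw [map_neg, LinearMap.neg_apply, ha, neg_zero]
  apply hQ.conj _ _ (Eg_isom h2 hB hs ha) (Eg_inv h2 hB hs ha) _ hK
  intro w
  have := Eg_inv h2 hB hs ha2 w
  rwa [neg_neg] at this

/-- Skew operators. -/
def Sk (B : LinearMap.BilinForm F W) (K : W →ₗ[F] W) : Prop := ∀ x y, B (K x) y = -B x (K y)

theorem Sk.dd (h2 : (2 : F) ≠ 0) (hB : SymB B) {s a : W} (hs : B s s = 0) (ha : B a s = 0)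
    {K : W →ₗ[F] W} (hK : Sk B K) : Sk B (dd B s a K) := by
  intro x y
  have ha2 : B (-a) s = 0 := by rw [map_neg, LinearMap.neg_apply, ha, neg_zero]
  have h1 : ∀ x y, B (Eg B s a x) y = B x (Eg B s (-a) y) := by
    intro x y
    have e := Eg_inv h2 hB hs ha y
    conv_lhs => rw [← e]
    rw [Eg_isom h2 hB hs ha]
  have h3 : ∀ x y, B (Eg B s (-a) x) y = B x (Eg B s a y) := by
    intro x y
    have e := Eg_inv h2 hB hs ha2 y
    rw [neg_neg] at e
    conv_lhs => rw [← e]
    rw [Eg_isom h2 hB hs ha2]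
  rw [dd_apply, dd_apply, map_sub, LinearMap.sub_apply, map_sub, h1, hK, h3, hK x y]
  ring

theorem dd_skew_eigen (h2 : (2 : F) ≠ 0) (hB : SymB B) {s a : W} (hs : B s s = 0)
    (ha : B a s = 0) {K : W →ₗ[F] W} (hK : Sk B K) {μ : F} (hKs : K s = μ • s) :
    dd B s a K = -wd B s (K a + μ • a) := by
  have ha' : B s a = 0 := by rw [hB.symm]; exact ha
  apply LinearMap.ext
  intro w
  have e1 : B (K w) s = -(μ * B w s) := by
    rw [hK, hKs, map_smul, smul_eq_mul]
  have e2 : B (K a) s = 0 := by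
    rw [hK, hKs, map_smul, smul_eq_mul, ha, mul_zero, neg_zero]
  have e3 : B (K w) a = -B w (K a) := hK w a
  have e4 : B (K a) a = 0 := by
    have h4 := hK a a
    rw [hB.symm a (K a)] at h4
    have : 2 * B (K a) a = 0 := by linear_combination h4
    exact (mul_eq_zero.1 this).resolve_left h2
  simp only [dd_apply, Eg_apply, wd_apply, map_add, map_sub, map_neg, map_smul,
    LinearMap.add_apply,
    LinearMap.sub_apply, LinearMap.neg_apply, LinearMap.smul_apply, smul_eq_mul, hs, ha, ha',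
    hKs, rk_apply, e1, e2, e3, e4, mul_zero, neg_zero, add_zero, sub_zero, neg_neg,
    zero_smul, smul_zero, neg_mul, mul_neg]
  match_scalars <;> field_simp <;> ring

/-- A non-singular vector orthogonal to a singular vector. -/
theorem exists_nonsing (h2 : (2 : F) ≠ 0) (hB : SymB B) [FiniteDimensional F W]
    (hdim : 3 ≤ Module.finrank F W) {s : W} (hs0 : s ≠ 0) (hs : B s s = 0) :
    ∃ a, B a s = 0 ∧ B a a ≠ 0 := by
  by_contra hcon
  push Not at hcon
  have h1 : ∀ a a', B a s = 0 → B a' s = 0 → B a a' = 0 := by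
    intro a a' ha ha'
    have h3 := hcon (a + a') (by rw [map_add, LinearMap.add_apply, ha, ha', add_zero])
    simp only [map_add, LinearMap.add_apply] at h3
    rw [hcon a ha, hcon a' ha', hB.symm a' a] at h3
    have : 2 * B a a' = 0 := by linear_combination h3
    exact (mul_eq_zero.1 this).resolve_left h2
  have h5 := LinearMap.finrank_range_add_finrank_ker (B.flip s)
  have h4 : Module.finrank F (LinearMap.range (B.flip s)) ≤ 1 := by
    calc _ ≤ Module.finrank F F := Submodule.finrank_le _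
      _ = 1 := Module.finrank_self F
  have h7 : LinearMap.ker (B.flip s) ≤ Submodule.span F {s} := by
    intro a ha
    rw [LinearMap.mem_ker] at ha
    obtain ⟨c, hc⟩ := mem_line_of_orth hB hs0 (z := a) (fun a' ha' => h1 a' a ha' ha)
    rw [hc]
    exact Submodule.smul_mem _ _ (Submodule.mem_span_singleton_self s)
  have h8 := Submodule.finrank_mono h7
  have h9 := finrank_span_le_card (R := F) ({s} : Set W)
  simp only [Set.toFinset_singleton, Finset.card_singleton] at h9
  omega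

/-- From a skew operator having `s` as an eigenvector. -/
theorem exists_wd_of_eigen (h2 : (2 : F) ≠ 0) (hB : SymB B) [FiniteDimensional F W]
    (hdim : 3 ≤ Module.finrank F W) (hQ : SkewSet B Q) {s : W} (hs0 : s ≠ 0) (hs : B s s = 0)
    {K : W →ₗ[F] W} (hK : Sk B K) (hKQ : Q K) (hK0 : K ≠ 0) {μ : F} (hKs : K s = μ • s) :
    ∃ z, B z s = 0 ∧ (∀ c : F, z ≠ c • s) ∧ Q (wd B s z) := by
  by_cases hex : ∃ a, B a s = 0 ∧ ∀ c : F, K a + μ • a ≠ c • s
  · obtain ⟨a, ha, hac⟩ := hex
    refine ⟨K a + μ • a, ?_, hac, ?_⟩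
    · rw [map_add, map_smul, LinearMap.add_apply, LinearMap.smul_apply, ha, hK, hKs, map_smul,
        ha, smul_zero, neg_zero, add_zero]
    · have h1 := hQ.dd h2 hB hs ha hKQ
      rw [dd_skew_eigen h2 hB hs ha hK hKs] at h1
      have := hQ.neg h1
      rwa [neg_neg] at this
  · push Not at hex
    have hμ : μ = 0 := by
      obtain ⟨a, ha, haa⟩ := exists_nonsing h2 hB hdim hs0 hs
      obtain ⟨c, hc⟩ := hex a ha
      have e1 := congrArg (fun x => B x a) hc
      simp only [map_add, map_smul, LinearMap.add_apply, LinearMap.smul_apply, smul_eq_mul,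
        hB.symm s a, ha, mul_zero] at e1
      have e4 : B (K a) a = 0 := by
        have h4 := hK a a
        rw [hB.symm a (K a)] at h4
        have : 2 * B (K a) a = 0 := by linear_combination h4
        exact (mul_eq_zero.1 this).resolve_left h2
      rw [e4, zero_add] at e1
      exact (mul_eq_zero.1 e1).resolve_right haa
    rw [hμ, zero_smul] at hKs
    obtain ⟨p, hp⟩ := exists_partner hB hs0
    have hsp : B s p = 1 := by rw [hB.symm]; exact hp
    have hns : B (K p) s = 0 := by rw [hK, hKs, map_zero, neg_zero]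
    have hpn : B p (K p) = 0 := by
      have h4 := hK p p
      rw [hB.symm (K p) p] at h4
      have : 2 * B p (K p) = 0 := by linear_combination h4
      exact (mul_eq_zero.1 this).resolve_left h2
    have hKe : K = wd B s (K p) := by
      apply LinearMap.ext
      intro w
      have hw : B (w - B w s • p) s = 0 := by
        rw [map_sub, map_smul, LinearMap.sub_apply, LinearMap.smul_apply, hp, smul_eq_mul, mul_one,
          sub_self]
      obtain ⟨c, hc⟩ := hex _ hw
      rw [hμ, zero_smul, add_zero] at hc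
      have e1 := congrArg (fun x => B x p) hc
      simp only [map_smul, LinearMap.smul_apply, smul_eq_mul, hsp, mul_one] at e1
      rw [hK] at e1
      have e2 : K w = K (w - B w s • p) + B w s • K p := by
        rw [← map_smul, ← map_add, sub_add_cancel]
      rw [e2, hc, ← e1, wd_apply, map_sub, map_smul, LinearMap.sub_apply, LinearMap.smul_apply,
        hpn]
      module
    refine ⟨K p, hns, ?_, by rw [← hKe]; exact hKQ⟩
    intro c hc
    apply hK0
    rw [hKe, hc]
    apply LinearMap.ext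
    intro w
    rw [wd_apply, map_smul, LinearMap.zero_apply, smul_eq_mul]
    module

/-- From any non-zero skew operator. -/
theorem exists_wd (h2 : (2 : F) ≠ 0) (hB : SymB B) [FiniteDimensional F W]
    (hdim : 3 ≤ Module.finrank F W) (hQ : SkewSet B Q) {s : W} (hs0 : s ≠ 0) (hs : B s s = 0)
    {K : W →ₗ[F] W} (hK : Sk B K) (hKQ : Q K) (hK0 : K ≠ 0) :
    ∃ z, B z s = 0 ∧ (∀ c : F, z ≠ c • s) ∧ Q (wd B s z) := by
  by_cases hex : ∃ μ : F, K s = μ • s
  · obtain ⟨μ, hμ⟩ := hex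
    exact exists_wd_of_eigen h2 hB hdim hQ hs0 hs hK hKQ hK0 hμ
  · push Not at hex
    have hys : B (K s) s = 0 := by
      have h4 := hK s s
      rw [hB.symm s (K s)] at h4
      have : 2 * B (K s) s = 0 := by linear_combination h4
      exact (mul_eq_zero.1 this).resolve_left h2
    obtain ⟨a, ha, hya⟩ : ∃ a, B a s = 0 ∧ B a (K s) ≠ 0 := by
      by_contra hc
      push Not at hc
      obtain ⟨c, hc'⟩ := mem_line_of_orth hB hs0 hc
      exact hex c hc'
    have e1 : dd B s a K s = (-(B (K s) a)) • s := by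
      rw [dd_self hB hs ha, hys, zero_smul, zero_smul, smul_zero, zero_sub, sub_zero, neg_smul]
    refine exists_wd_of_eigen h2 hB hdim hQ hs0 hs (hK.dd h2 hB hs ha) (hQ.dd h2 hB hs ha hKQ)
      ?_ e1
    intro h0
    rw [h0, LinearMap.zero_apply] at e1
    rcases smul_eq_zero.1 e1.symm with h | h
    · apply hya
      rw [hB.symm]
      exact neg_eq_zero.1 h
    · exact hs0 h

/-- **No skew operators.** -/
theorem skew_eq_zero (h2 : (2 : F) ≠ 0) (hB : SymB B) [FiniteDimensional F W]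
    (hdim : 3 ≤ Module.finrank F W) (hQ : SkewSet B Q)
    (hcomm : ∀ K L, Q K → Q L → Sk B K → Sk B L → ∃ c : F, K ∘ₗ L + L ∘ₗ K = c • LinearMap.id)
    {s : W} (hs0 : s ≠ 0) (hs : B s s = 0) {K : W →ₗ[F] W} (hK : Sk B K) (hKQ : Q K) : K = 0 := by
  by_contra hK0
  obtain ⟨z, hzs, hzc, hz⟩ := exists_wd h2 hB hdim hQ hs0 hs hK hKQ hK0
  have hsk : ∀ z, Sk B (wd B s z) := by
    intro z x y
    simp only [wd_apply, map_sub, map_smul, LinearMap.sub_apply, LinearMap.smul_apply, smul_eq_mul,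
      hB.symm z y, hB.symm s y]
    ring
  obtain ⟨z', hz's, hzz', hz'⟩ : ∃ z', B z' s = 0 ∧ B z z' ≠ 0 ∧ Q (wd B s z') := by
    by_cases hzz : B z z = 0
    · obtain ⟨v, hvs, hvz, hvv⟩ : ∃ v, B v s = 0 ∧ B v z ≠ 0 ∧ B v v ≠ 0 := by
        obtain ⟨v, hvs, hvz⟩ : ∃ v, B v s = 0 ∧ B v z ≠ 0 := by
          by_contra hc
          push Not at hc
          obtain ⟨c, hc'⟩ := mem_line_of_orth hB hs0 hc
          exact hzc c hc'
        by_cases hvv : B v v = 0
        · refine ⟨v + z, ?_, ?_, ?_⟩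
          · rw [map_add, LinearMap.add_apply, hvs, hzs, add_zero]
          · rwa [map_add, LinearMap.add_apply, hzz, add_zero]
          · simp only [map_add, LinearMap.add_apply, hvv, hzz, hB.symm z v, zero_add, add_zero]
            rw [← two_mul]
            exact mul_ne_zero h2 hvz
        · exact ⟨v, hvs, hvz, hvv⟩
      have h1 := hQ.conj (rf B v) (rf B v) (rf_isom hB hvv) (rf_rf hvv) (rf_rf hvv) hz
      have hsv : B s v = 0 := by rw [hB.symm]; exact hvs
      have hzv : B z v = B v z := hB.symm z v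
      have e : rf B v ∘ₗ wd B s z ∘ₗ rf B v = wd B s (rf B v z) := by
        apply LinearMap.ext
        intro w
        simp only [LinearMap.comp_apply, rf_apply, wd_apply, map_sub, map_smul,
          LinearMap.sub_apply, LinearMap.smul_apply, smul_eq_mul, hvs, hsv, hzv, mul_zero, sub_zero,
          zero_smul, smul_zero, map_zero, LinearMap.zero_apply]
        module
      rw [e] at h1
      refine ⟨rf B v z, ?_, ?_, h1⟩
      · rw [rf_apply, map_sub, map_smul, map_smul, LinearMap.sub_apply, LinearMap.smul_apply,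
          LinearMap.smul_apply, hvs, hzs, smul_zero, smul_zero, sub_zero]
      · rw [rf_apply, map_sub, map_smul, map_smul, hzz, hzv, zero_sub]
        apply neg_ne_zero.2
        rw [smul_eq_mul, smul_eq_mul]
        exact mul_ne_zero (div_ne_zero h2 hvv) (mul_ne_zero hvz hvz)
    · exact ⟨z, hzs, hzz, hz⟩
  obtain ⟨c, hc⟩ := hcomm _ _ hz hz' (hsk z) (hsk z')
  have hsz : B s z = 0 := by rw [hB.symm]; exact hzs
  have hsz' : B s z' = 0 := by rw [hB.symm]; exact hz's
  obtain ⟨p, hp⟩ := exists_partner hB hs0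
  have h1 := congrArg (fun L : W →ₗ[F] W => L s) hc
  simp only [LinearMap.add_apply, LinearMap.comp_apply, wd_apply, hs, hsz, hsz', zero_smul,
    sub_self, map_zero, add_zero, LinearMap.zero_apply, LinearMap.smul_apply,
    LinearMap.id_apply] at h1
  have hc0 : c = 0 := by
    rcases smul_eq_zero.1 h1.symm with h | h
    · exact h
    · exact absurd h hs0
  have h3 := congrArg (fun L : W →ₗ[F] W => L p) hc
  simp only [LinearMap.add_apply, LinearMap.comp_apply, wd_apply, map_sub, map_smul, hs, hsz, hsz',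
    hp, hzs, hz's, hB.symm z' z, hc0, LinearMap.sub_apply, LinearMap.smul_apply, smul_eq_mul,
    LinearMap.id_apply, mul_zero, zero_smul, sub_zero, zero_sub, mul_one, one_smul,
    smul_zero] at h3
  have h4 : (2 * B z z') • s = 0 := by
    have : (2 * B z z') • s = -(-(B z z' • s) + -(B z z' • s)) := by module
    rw [this]
    have e : -(B z z' • s) + -(B z z' • s) = 0 := h3
    rw [e, neg_zero]
  rcases smul_eq_zero.1 h4 with h | h
  · exact mul_ne_zero h2 hzz' h
  · exact hs0 h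

end Cfsg.Agent.H875.Ten
end

-- part: H875/TenBase
section
/-!
# Tensor structures on the symplectic space

`V = F^{2m}` with its alternating form is identified through `Θ` with `U ⊗ W`, `U` with a
non-degenerate alternating form `A`, `W` with a non-degenerate symmetric form `B`.
`ct x : V → W` is the contraction `u ⊗ w ↦ A(u,x) w`.
-/

set_option autoImplicit false
set_option linter.unusedSimpArgs false
open Cfsg
open scoped Matrix TensorProduct
open Cfsg.Agent.ClassicalGeometry.SympBasic Cfsg.Agent.ClassicalGeometry.SympSiegel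

namespace Cfsg.Agent.H875.Ten

variable {F : Type*} [Field F] {m : ℕ}

local notation "V" => (Fin m ⊕ Fin m → F)
local notation "G" => Matrix.symplecticGroup (Fin m) F
local notation "f" => sympForm m F

variable {U W : Type*} [AddCommGroup U] [Module F U] [AddCommGroup W] [Module F W]

/-- A tensor structure. -/
structure TS (A : LinearMap.BilinForm F U) (B : LinearMap.BilinForm F W)
    (Θ : U ⊗[F] W ≃ₗ[F] (Fin m ⊕ Fin m → F)) : Prop where
  alt : ∀ u, A u u = 0
  ndA : ∀ u, (∀ u', A u u' = 0) → u = 0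
  symB : SymB B
  form : ∀ u w u' w', sympForm m F (Θ (u ⊗ₜ w)) (Θ (u' ⊗ₜ w')) = A u u' * B w w'

/-- Pure tensors. -/
def tn (Θ : U ⊗[F] W ≃ₗ[F] (Fin m ⊕ Fin m → F)) (u : U) (w : W) : Fin m ⊕ Fin m → F :=
  Θ (u ⊗ₜ w)

/-- `a ⊗ b`. -/
noncomputable def opT (Θ : U ⊗[F] W ≃ₗ[F] (Fin m ⊕ Fin m → F)) (a : U →ₗ[F] U) (b : W →ₗ[F] W) :
    (Fin m ⊕ Fin m → F) →ₗ[F] (Fin m ⊕ Fin m → F) :=
  Θ.toLinearMap ∘ₗ TensorProduct.map a b ∘ₗ Θ.symm.toLinearMap

/-- The contraction `u ⊗ w ↦ A(u,x) w`. -/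
noncomputable def ct (Θ : U ⊗[F] W ≃ₗ[F] (Fin m ⊕ Fin m → F)) (A : LinearMap.BilinForm F U)
    (x : U) : (Fin m ⊕ Fin m → F) →ₗ[F] W :=
  (TensorProduct.lid F W).toLinearMap ∘ₗ TensorProduct.map (A.flip x) LinearMap.id ∘ₗ
    Θ.symm.toLinearMap

variable {A : LinearMap.BilinForm F U} {B : LinearMap.BilinForm F W}
  {Θ : U ⊗[F] W ≃ₗ[F] (Fin m ⊕ Fin m → F)}

theorem tn_add_left (u u' : U) (w : W) : tn Θ (u + u') w = tn Θ u w + tn Θ u' w := by
  rw [tn, tn, tn, TensorProduct.add_tmul, map_add]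

theorem tn_add_right (u : U) (w w' : W) : tn Θ u (w + w') = tn Θ u w + tn Θ u w' := by
  rw [tn, tn, tn, TensorProduct.tmul_add, map_add]

theorem tn_smul_left (c : F) (u : U) (w : W) : tn Θ (c • u) w = c • tn Θ u w := by
  rw [tn, tn, ← TensorProduct.smul_tmul', map_smul]

theorem tn_smul_right (c : F) (u : U) (w : W) : tn Θ u (c • w) = c • tn Θ u w := by
  rw [tn, tn, TensorProduct.tmul_smul, map_smul]

theorem tn_zero_left (w : W) : tn Θ 0 w = 0 := by
  rw [tn, TensorProduct.zero_tmul, map_zero]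

theorem tn_zero_right (u : U) : tn Θ u 0 = 0 := by
  rw [tn, TensorProduct.tmul_zero, map_zero]

theorem tn_neg_left (u : U) (w : W) : tn Θ (-u) w = -tn Θ u w := by
  rw [← neg_one_smul F u, tn_smul_left, neg_one_smul]

theorem tn_neg_right (u : U) (w : W) : tn Θ u (-w) = -tn Θ u w := by
  rw [← neg_one_smul F w, tn_smul_right, neg_one_smul]

theorem tn_sub_left (u u' : U) (w : W) : tn Θ (u - u') w = tn Θ u w - tn Θ u' w := by
  rw [sub_eq_add_neg, tn_add_left, tn_neg_left, sub_eq_add_neg]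

theorem tn_sub_right (u : U) (w w' : W) : tn Θ u (w - w') = tn Θ u w - tn Θ u w' := by
  rw [sub_eq_add_neg, tn_add_right, tn_neg_right, sub_eq_add_neg]

theorem opT_tn (a : U →ₗ[F] U) (b : W →ₗ[F] W) (u : U) (w : W) :
    opT Θ a b (tn Θ u w) = tn Θ (a u) (b w) := by
  simp [opT, tn]

theorem ct_tn (x u : U) (w : W) : ct Θ A x (tn Θ u w) = A u x • w := by
  simp [ct, tn]

theorem ext_tn {X : Type*} [AddCommGroup X] [Module F X] {L L' : V →ₗ[F] X}
    (h : ∀ u w, L (tn Θ u w) = L' (tn Θ u w)) : L = L' := by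
  have h1 : L ∘ₗ Θ.toLinearMap = L' ∘ₗ Θ.toLinearMap := TensorProduct.ext' fun u w => h u w
  apply LinearMap.ext
  intro v
  have h2 := congrArg (fun K : U ⊗[F] W →ₗ[F] X => K (Θ.symm v)) h1
  simpa using h2

theorem tn_induction {P : V → Prop} (h0 : P 0) (h1 : ∀ u w, P (tn Θ u w))
    (h2 : ∀ x y, P x → P y → P (x + y)) (v : V) : P v := by
  have h3 : ∀ x : U ⊗[F] W, P (Θ x) := by
    intro x
    induction x using TensorProduct.induction_on with
    | zero => rw [map_zero]; exact h0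
    | tmul u w => exact h1 u w
    | add x y hx hy => rw [map_add]; exact h2 _ _ hx hy
  have := h3 (Θ.symm v)
  rwa [LinearEquiv.apply_symm_apply] at this

theorem TS.swap (h : TS A B Θ) (u u' : U) : A u u' = -A u' u := by
  have h1 := h.alt (u + u')
  simp only [map_add, LinearMap.add_apply, h.alt, zero_add, add_zero] at h1
  linear_combination h1

theorem TS.form' (h : TS A B Θ) (u : U) (w : W) (u' : U) (w' : W) :
    f (tn Θ u w) (tn Θ u' w') = A u u' * B w w' := h.form u w u' w'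

theorem TS.form_ct (h : TS A B Θ) (v : V) (x : U) (w : W) :
    f v (tn Θ x w) = B (ct Θ A x v) w := by
  refine tn_induction (Θ := Θ) (P := fun v => f v (tn Θ x w) = B (ct Θ A x v) w) ?_ ?_ ?_ v
  · rw [sympForm_zero_left, map_zero, map_zero, LinearMap.zero_apply]
  · intro u w'
    rw [h.form', ct_tn, map_smul, LinearMap.smul_apply, smul_eq_mul]
  · intro a b ha hb
    rw [sympForm_add_left, ha, hb, map_add, map_add, LinearMap.add_apply]

theorem TS.form_ct' (h : TS A B Θ) (v : V) (x : U) (w : W) :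
    f (tn Θ x w) v = -B (ct Θ A x v) w := by
  rw [sympForm_swap, h.form_ct]

/-- Equality in `W` through the form. -/
theorem TS.extW (h : TS A B Θ) {w w' : W} (hw : ∀ x, B w x = B w' x) : w = w' := by
  have : w - w' = 0 := h.symB.nd _ fun y => by
    rw [map_sub, LinearMap.sub_apply, hw, sub_self]
  exact sub_eq_zero.1 this

theorem TS.extV (h : TS A B Θ) {v v' : V} (hv : ∀ x, ct Θ A x v = ct Θ A x v') : v = v' := by
  have h1 : v - v' = 0 := by
    apply eq_zero_of_forall_sympForm_right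
    intro w
    refine tn_induction (Θ := Θ) (P := fun w => f (v - v') w = 0) ?_ ?_ ?_ w
    · exact sympForm_zero_right _
    · intro u w'
      rw [h.form_ct, map_sub, hv, sub_self, map_zero, LinearMap.zero_apply]
    · intro a b ha hb
      rw [sympForm_add_right, ha, hb, add_zero]
  exact sub_eq_zero.1 h1

theorem ct_add (x y : U) (v : V) : ct Θ A (x + y) v = ct Θ A x v + ct Θ A y v := by
  refine tn_induction (Θ := Θ)
    (P := fun v => ct Θ A (x + y) v = ct Θ A x v + ct Θ A y v) ?_ ?_ ?_ v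
  · simp
  · intro u w
    rw [ct_tn, ct_tn, ct_tn, map_add, add_smul]
  · intro a b ha hb
    rw [map_add, ha, hb, map_add, map_add]
    abel

theorem ct_smul (c : F) (x : U) (v : V) : ct Θ A (c • x) v = c • ct Θ A x v := by
  refine tn_induction (Θ := Θ)
    (P := fun v => ct Θ A (c • x) v = c • ct Θ A x v) ?_ ?_ ?_ v
  · simp
  · intro u w
    rw [ct_tn, ct_tn, map_smul, smul_eq_mul, mul_smul]
  · intro a b ha hb
    rw [map_add, ha, hb, map_add, smul_add]

theorem ct_neg (x : U) (v : V) : ct Θ A (-x) v = -ct Θ A x v := by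
  rw [← neg_one_smul F x, ct_smul, neg_one_smul]

theorem ct_sub (x y : U) (v : V) : ct Θ A (x - y) v = ct Θ A x v - ct Θ A y v := by
  rw [sub_eq_add_neg, ct_add, ct_neg, sub_eq_add_neg]

theorem ct_zero (v : V) : ct Θ A 0 v = 0 := by
  have := ct_smul (Θ := Θ) (A := A) 0 0 v
  rwa [zero_smul, zero_smul] at this

/-- Isometries can be checked on pure tensors. -/
theorem isom_of_tn {L : V →ₗ[F] V}
    (hL : ∀ u w u' w', f (L (tn Θ u w)) (L (tn Θ u' w')) = f (tn Θ u w) (tn Θ u' w')) :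
    ∀ v v', f (L v) (L v') = f v v' := by
  intro v v'
  refine tn_induction (Θ := Θ) (P := fun v => f (L v) (L v') = f v v') ?_ ?_ ?_ v
  · rw [map_zero, sympForm_zero_left, sympForm_zero_left]
  · intro u w
    refine tn_induction (Θ := Θ)
      (P := fun v' => f (L (tn Θ u w)) (L v') = f (tn Θ u w) v') ?_ ?_ ?_ v'
    · rw [map_zero, sympForm_zero_right, sympForm_zero_right]
    · exact hL u w
    · intro a b ha hb
      rw [map_add, sympForm_add_right, sympForm_add_right, ha, hb]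
  · intro a b ha hb
    rw [map_add, sympForm_add_left, sympForm_add_left, ha, hb]

/-- The elements respecting the tensor structure. -/
def InH (Θ : U ⊗[F] W ≃ₗ[F] (Fin m ⊕ Fin m → F)) (g : Matrix.symplecticGroup (Fin m) F) : Prop :=
  ∃ (a : U →ₗ[F] U) (b : W →ₗ[F] W), ∀ u w, g • tn Θ u w = tn Θ (a u) (b w)

theorem InH.mul {g g' : G} (h : InH Θ g) (h' : InH Θ g') : InH Θ (g * g') := by
  obtain ⟨a, b, h⟩ := h
  obtain ⟨a', b', h'⟩ := h'
  exact ⟨a ∘ₗ a', b ∘ₗ b', fun u w => by rw [mul_smul, h', h]; rfl⟩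

/-- Elements of the symplectic group from pairs of operators. -/
theorem TS.exists_of (h : TS A B Θ) (a : U →ₗ[F] U) (b : W →ₗ[F] W)
    (hab : ∀ u w u' w', A (a u) (a u') * B (b w) (b w') = A u u' * B w w') :
    ∃ g : G, ∀ u w, g • tn Θ u w = tn Θ (a u) (b w) := by
  refine ⟨ofIso (opT Θ a b) (isom_of_tn (Θ := Θ) fun u w u' w' => ?_), fun u w => ?_⟩
  · rw [opT_tn, opT_tn, h.form', h.form', hab]
  · rw [ofIso_smul, opT_tn]

/-- `g` is determined on all vectors by pure tensors. -/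
theorem smul_eq_of_tn {g : G} {L : V →ₗ[F] V} (h : ∀ u w, g • tn Θ u w = L (tn Θ u w)) (v : V) :
    g • v = L v := by
  refine tn_induction (Θ := Θ) (P := fun v => g • v = L v) ?_ h ?_ v
  · rw [map_zero, smul_zero]
  · intro a b ha hb
    rw [smul_add', ha, hb, map_add]

/-- The linear map `v ↦ x ⊗ S (ct y v)`. -/
noncomputable def nq (Θ : U ⊗[F] W ≃ₗ[F] (Fin m ⊕ Fin m → F)) (A : LinearMap.BilinForm F U)
    (x y : U) (S : W →ₗ[F] W) : (Fin m ⊕ Fin m → F) →ₗ[F] (Fin m ⊕ Fin m → F) :=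
  { toFun := fun v => tn Θ x (S (ct Θ A y v))
    map_add' := fun v v' => by rw [map_add, map_add, tn_add_right]
    map_smul' := fun c v => by rw [map_smul, map_smul, tn_smul_right, RingHom.id_apply] }

theorem nq_apply (x y : U) (S : W →ₗ[F] W) (v : V) :
    nq Θ A x y S v = tn Θ x (S (ct Θ A y v)) := rfl

/-- The transvections `t_x(c) ⊗ 1`. -/
theorem TS.exists_tU (h : TS A B Θ) (x : U) (c : F) :
    ∃ g : G, InH Θ g ∧ ∀ v, g • v = v + c • tn Θ x (ct Θ A x v) := by
  obtain ⟨g, hg⟩ := h.exists_of (LinearMap.id + c • rk A x x)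
    LinearMap.id (by
      intro u w u' w'
      simp only [LinearMap.add_apply, LinearMap.id_apply, LinearMap.smul_apply,
        rk_apply, map_add, map_smul, smul_eq_mul, h.alt,
        h.swap x u']
      ring)
  refine ⟨g, ⟨_, _, hg⟩, ?_⟩
  intro v
  have h1 := smul_eq_of_tn (g := g) (Θ := Θ)
    (L := LinearMap.id + c • nq Θ A x x LinearMap.id) (by
      intro u w
      simp only [hg, LinearMap.add_apply, LinearMap.id_apply, LinearMap.smul_apply, nq_apply,
        ct_tn, rk_apply, tn_add_left, tn_smul_left, tn_smul_right]) v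
  rw [h1]
  rfl

/-- The Siegel elements `E(x,y) ⊗ 1`. -/
theorem TS.exists_eU (h : TS A B Θ) {x y : U} (hxy : A x y = 0) :
    ∃ g : G, InH Θ g ∧ ∀ v, g • v = v + tn Θ y (ct Θ A x v) + tn Θ x (ct Θ A y v) := by
  have hyx : A y x = 0 := by rw [h.swap, hxy, neg_zero]
  obtain ⟨g, hg⟩ := h.exists_of
    (LinearMap.id + rk A x y + rk A y x)
    LinearMap.id (by
      intro u w u' w'
      simp only [LinearMap.add_apply, LinearMap.id_apply, LinearMap.smul_apply,
        rk_apply, map_add, map_smul, smul_eq_mul, h.alt,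
        h.swap x u', h.swap y u', hxy, hyx]
      ring)
  refine ⟨g, ⟨_, _, hg⟩, ?_⟩
  intro v
  have h1 := smul_eq_of_tn (g := g) (Θ := Θ)
    (L := LinearMap.id + nq Θ A y x LinearMap.id + nq Θ A x y LinearMap.id) (by
      intro u w
      simp only [hg, LinearMap.add_apply, LinearMap.id_apply, LinearMap.smul_apply, nq_apply,
        ct_tn, rk_apply, tn_add_left, tn_smul_left, tn_smul_right]) v
  rw [h1]
  rfl

/-- The elements `1 ⊗ y`. -/
theorem TS.exists_W (h : TS A B Θ) {y : W →ₗ[F] W} (hy : ∀ w w', B (y w) (y w') = B w w') :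
    ∃ g : G, InH Θ g ∧ ∀ u w, g • tn Θ u w = tn Θ u (y w) := by
  obtain ⟨g, hg⟩ := h.exists_of LinearMap.id y (by
    intro u w u' w'
    rw [hy]
    rfl)
  exact ⟨g, ⟨_, _, hg⟩, hg⟩

/-- The elements `a ⊗ 1`. -/
theorem TS.exists_U (h : TS A B Θ) {a : U →ₗ[F] U} (ha : ∀ u u', A (a u) (a u') = A u u') :
    ∃ g : G, InH Θ g ∧ ∀ u w, g • tn Θ u w = tn Θ (a u) w := by
  obtain ⟨g, hg⟩ := h.exists_of a LinearMap.id (by
    intro u w u' w'
    rw [ha]
    rfl)
  exact ⟨g, ⟨_, _, hg⟩, hg⟩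

/-- Transitivity of the isometries of `U` on non-zero vectors. -/
theorem TS.exists_isom (h : TS A B Θ) {x x' : U} (hx : x ≠ 0) (hx' : x' ≠ 0) :
    ∃ a : U →ₗ[F] U, (∀ u u', A (a u) (a u') = A u u') ∧ a x = x' := by
  have step : ∀ x x' : U, A x x' ≠ 0 →
      ∃ a : U →ₗ[F] U, (∀ u u', A (a u) (a u') = A u u') ∧ a x = x' := by
    intro x x' hxx'
    refine ⟨LinearMap.id + (A x x')⁻¹ • rk A (x' - x) (x' - x),
      ?_, ?_⟩
    · intro u u'
      simp only [LinearMap.add_apply, LinearMap.id_apply, LinearMap.smul_apply,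
        rk_apply, map_add, map_smul, smul_eq_mul,
        map_sub, LinearMap.sub_apply, h.alt, h.swap x u', h.swap x' u', h.swap x' x]
      ring
    · simp only [LinearMap.add_apply, LinearMap.id_apply, LinearMap.smul_apply,
        rk_apply, map_sub, h.alt, sub_zero]
      rw [smul_smul, inv_mul_cancel₀ hxx', one_smul]
      abel
  obtain ⟨y, hy⟩ : ∃ y, A x y ≠ 0 := by
    by_contra hc
    push Not at hc
    exact hx (h.ndA x hc)
  obtain ⟨y', hy'⟩ : ∃ y, A x' y ≠ 0 := by
    by_contra hc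
    push Not at hc
    exact hx' (h.ndA x' hc)
  obtain ⟨z, hz, hz'⟩ : ∃ z, A x z ≠ 0 ∧ A x' z ≠ 0 := by
    by_cases h1 : A x' y = 0
    · by_cases h3 : A x y' = 0
      · refine ⟨y + y', ?_, ?_⟩
        · rwa [map_add, h3, add_zero]
        · rwa [map_add, h1, zero_add]
      · exact ⟨y', h3, hy'⟩
    · exact ⟨y, hy, h1⟩
  obtain ⟨a, ha, hax⟩ := step x z hz
  obtain ⟨a', ha', haz⟩ := step z x' (by rw [h.swap]; exact neg_ne_zero.2 hz')
  exact ⟨a' ∘ₗ a, fun u u' => by rw [LinearMap.comp_apply, LinearMap.comp_apply, ha', ha],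
    by rw [LinearMap.comp_apply, hax, haz]⟩

/-- Transport of contractions. -/
theorem TS.ct_inv (h : TS A B Θ) {g : G} {x x' : U} {y : W → W}
    (hg : ∀ w, g • tn Θ x w = tn Θ x' (y w)) (v : V) (w : W) :
    B (ct Θ A x (g⁻¹ • v)) w = B (ct Θ A x' v) (y w) := by
  rw [← h.form_ct, ← h.form_ct, ← hg, ← form_smul g, smul_inv_smul]

end Cfsg.Agent.H875.Ten
end

-- part: H875/TenOne
section
/-!
# Overgroups of `Sp(U) ⊗ O(W)`: elements `1 + x ⊗ S ct_x`

If `M` contains the stabiliser of the tensor structure then either every element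
`v ↦ v + x ⊗ S (ct_x v)` of `M` has `S` scalar or `M` is the symplectic group.
-/

set_option autoImplicit false
set_option linter.unusedSimpArgs false
open Cfsg
open scoped Matrix TensorProduct
open Cfsg.Agent.ClassicalGeometry.SympBasic Cfsg.Agent.ClassicalGeometry.SympSiegel

namespace Cfsg.Agent.H875.Ten

variable {F : Type*} [Field F] {m : ℕ}

local notation "V" => (Fin m ⊕ Fin m → F)
local notation "G" => Matrix.symplecticGroup (Fin m) F
local notation "f" => sympForm m F

variable {U W : Type*} [AddCommGroup U] [Module F U] [AddCommGroup W] [Module F W]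
variable {A : LinearMap.BilinForm F U} {B : LinearMap.BilinForm F W}
  {Θ : U ⊗[F] W ≃ₗ[F] (Fin m ⊕ Fin m → F)}

/-- `M` contains `v ↦ v + x ⊗ S (ct_x v)`. -/
def InAt (Θ : U ⊗[F] W ≃ₗ[F] (Fin m ⊕ Fin m → F)) (A : LinearMap.BilinForm F U)
    (M : Subgroup (Matrix.symplecticGroup (Fin m) F)) (x : U) (S : W →ₗ[F] W) : Prop :=
  ∃ g ∈ M, ∀ v, g • v = v + tn Θ x (S (ct Θ A x v))

variable {M : Subgroup (Matrix.symplecticGroup (Fin m) F)}

theorem TS.InAt_isom (h : TS A B Θ) (hH : ∀ g, InH Θ g → g ∈ M) {a : U →ₗ[F] U}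
    (ha : ∀ u u', A (a u) (a u') = A u u') {x : U} {S : W →ₗ[F] W} (hS : InAt Θ A M x S) :
    InAt Θ A M (a x) S := by
  obtain ⟨g, hg, hgv⟩ := hS
  obtain ⟨k, hk, hku⟩ := h.exists_U ha
  refine ⟨k * g * k⁻¹, M.mul_mem (M.mul_mem (hH k hk) hg) (M.inv_mem (hH k hk)), fun v => ?_⟩
  have h1 : ct Θ A x (k⁻¹ • v) = ct Θ A (a x) v :=
    h.extW fun w => h.ct_inv (y := id) (fun w => hku x w) v w
  rw [mul_smul, mul_smul, hgv, smul_add', smul_inv_smul, hku, h1]

theorem TS.InAt_all (h : TS A B Θ) (hH : ∀ g, InH Θ g → g ∈ M) {x : U} (hx : x ≠ 0)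
    {S : W →ₗ[F] W} (hS : InAt Θ A M x S) (x' : U) : InAt Θ A M x' S := by
  by_cases hx' : x' = 0
  · subst hx'
    exact ⟨1, M.one_mem, fun v => by rw [one_smul, tn_zero_left, add_zero]⟩
  · obtain ⟨a, ha, hax⟩ := h.exists_isom hx hx'
    rw [← hax]
    exact h.InAt_isom hH ha hS

/-- `S` with `v ↦ v + x ⊗ S (ct_x v)` in `M` for all `x`. -/
def InS (Θ : U ⊗[F] W ≃ₗ[F] (Fin m ⊕ Fin m → F)) (A : LinearMap.BilinForm F U)
    (M : Subgroup (Matrix.symplecticGroup (Fin m) F)) (S : W →ₗ[F] W) : Prop :=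
  ∀ x, InAt Θ A M x S

theorem TS.InS_add (h : TS A B Θ) {S T : W →ₗ[F] W} (hS : InS Θ A M S) (hT : InS Θ A M T) :
    InS Θ A M (S + T) := by
  intro x
  obtain ⟨g, hg, hgv⟩ := hS x
  obtain ⟨k, hk, hkv⟩ := hT x
  refine ⟨g * k, M.mul_mem hg hk, fun v => ?_⟩
  rw [mul_smul, hkv, hgv, map_add, ct_tn, h.alt, zero_smul, add_zero, LinearMap.add_apply,
    tn_add_right]
  abel

theorem TS.InS_neg (h : TS A B Θ) {S : W →ₗ[F] W} (hS : InS Θ A M S) : InS Θ A M (-S) := by
  intro x
  obtain ⟨g, hg, hgv⟩ := hS x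
  refine ⟨g⁻¹, M.inv_mem hg, fun v => ?_⟩
  rw [inv_smul_eq_iff, hgv, map_add, ct_tn, h.alt, zero_smul, add_zero, LinearMap.neg_apply,
    tn_neg_right]
  abel

theorem InS_sq {S : W →ₗ[F] W} (hS : InS Θ A M S) (c : F) : InS Θ A M ((c ^ 2) • S) := by
  intro x
  obtain ⟨g, hg, hgv⟩ := hS (c • x)
  refine ⟨g, hg, fun v => ?_⟩
  rw [hgv, ct_smul, map_smul, tn_smul_left, tn_smul_right, LinearMap.smul_apply, tn_smul_right,
    smul_smul, pow_two]

theorem TS.InS_smul (h2 : (2 : F) ≠ 0) (h : TS A B Θ) {S : W →ₗ[F] W} (hS : InS Θ A M S) (c : F) :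
    InS Θ A M (c • S) := by
  have h1 := h.InS_add (InS_sq hS ((c + 1) / 2)) (h.InS_neg (InS_sq hS ((c - 1) / 2)))
  have e : (((c + 1) / 2) ^ 2) • S + -((((c - 1) / 2) ^ 2) • S) = c • S := by
    rw [← sub_eq_add_neg, ← sub_smul]
    congr 1
    field_simp
    ring
  rwa [e] at h1

theorem TS.InS_conj (h : TS A B Θ) (hH : ∀ g, InH Θ g → g ∈ M) {y y' : W →ₗ[F] W}
    (hy : ∀ w w', B (y w) (y w') = B w w') (hyy : ∀ w, y (y' w) = w) {S : W →ₗ[F] W}
    (hS : InS Θ A M S) : InS Θ A M (y ∘ₗ S ∘ₗ y') := by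
  intro x
  obtain ⟨g, hg, hgv⟩ := hS x
  obtain ⟨k, hk, hku⟩ := h.exists_W hy
  refine ⟨k * g * k⁻¹, M.mul_mem (M.mul_mem (hH k hk) hg) (M.inv_mem (hH k hk)), fun v => ?_⟩
  have h1 : ct Θ A x (k⁻¹ • v) = y' (ct Θ A x v) := by
    apply h.extW
    intro w
    rw [h.ct_inv (y := y) (fun w => hku x w), ← hy (y' _) w, hyy]
  rw [mul_smul, mul_smul, hgv, smul_add', smul_inv_smul, hku, h1]
  rfl

theorem TS.InS_one (h : TS A B Θ) (hH : ∀ g, InH Θ g → g ∈ M) : InS Θ A M LinearMap.id := by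
  intro x
  obtain ⟨g, hg, hgv⟩ := h.exists_tU x 1
  exact ⟨g, hH g hg, fun v => by rw [hgv, one_smul]; rfl⟩

theorem TS.opSet (h2 : (2 : F) ≠ 0) (h : TS A B Θ) (hH : ∀ g, InH Θ g → g ∈ M) :
    OpSet B (InS Θ A M) where
  add := h.InS_add
  smul := fun c _ hS => h.InS_smul h2 hS c
  one := h.InS_one hH
  conj := fun hs ha _ hS => h.InS_conj hH (Eg_isom h2 h.symB hs ha) (Eg_inv h2 h.symB hs ha) hS

/-- The operators occurring are self-adjoint. -/
theorem TS.SA_of_InAt (h : TS A B Θ) {x : U} (hx : x ≠ 0) {S : W →ₗ[F] W} {g : G}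
    (hg : ∀ v, g • v = v + tn Θ x (S (ct Θ A x v))) : SA B S := by
  obtain ⟨u, hu⟩ : ∃ u, A x u ≠ 0 := by
    by_contra hc
    push Not at hc
    exact hx (h.ndA x hc)
  intro w w'
  have h1 := form_smul g (tn Θ u w) (tn Θ u w')
  rw [hg, hg, ct_tn, ct_tn, map_smul, map_smul, tn_smul_right, tn_smul_right] at h1
  simp only [sympForm_add_left, sympForm_add_right, sympForm_smul_left, sympForm_smul_right,
    h.form', h.alt, zero_mul, mul_zero, add_zero] at h1
  rw [h.swap u x] at h1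
  have h3 : A x u * A x u * (B (S w) w' - B w (S w')) = 0 := by linear_combination -h1
  rcases mul_eq_zero.1 h3 with h4 | h4
  · exact absurd h4 (mul_ne_zero hu hu)
  · exact sub_eq_zero.1 h4

/-! ### Singular vectors -/

/-- `E(s,a) p` is singular. -/
theorem exists_sing_partner (h2 : (2 : F) ≠ 0) (hB : SymB B) {s : W} (hs0 : s ≠ 0)
    (hs : B s s = 0) : ∃ p, B p s = 1 ∧ B p p = 0 := by
  obtain ⟨p₀, hp₀⟩ := exists_partner hB hs0
  have hsp₀ : B s p₀ = 1 := by rw [hB.symm]; exact hp₀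
  refine ⟨p₀ - (B p₀ p₀ / 2) • s, ?_, ?_⟩
  · rw [map_sub, map_smul, LinearMap.sub_apply, LinearMap.smul_apply, hp₀, hs, smul_zero, sub_zero]
  · simp only [map_sub, map_smul, LinearMap.sub_apply, LinearMap.smul_apply, smul_eq_mul, hp₀,
      hsp₀, hs]
    field_simp
    ring

/-- A vector orthogonal to all singular vectors is zero. -/
theorem exists_sing_nonorth (h2 : (2 : F) ≠ 0) (hB : SymB B) {s : W} (hs0 : s ≠ 0)
    (hs : B s s = 0) {w : W} (hw : w ≠ 0) : ∃ t, B t t = 0 ∧ B w t ≠ 0 := by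
  by_contra hcon
  push Not at hcon
  obtain ⟨p, hp, hpp⟩ := exists_sing_partner h2 hB hs0 hs
  have hws := hcon s hs
  have hwp := hcon p hpp
  have h1 : ∀ a, B a s = 0 → B a w = 0 := by
    intro a ha
    have h3 := hcon (Eg B s a p) (by rw [Eg_isom h2 hB hs ha]; exact hpp)
    rw [Eg_apply, hp, one_smul, map_sub, map_sub, map_add, map_smul, map_smul, hws, hwp, smul_zero,
      map_smul, hws, smul_zero, smul_zero, sub_zero, sub_zero, zero_add] at h3
    rw [hB.symm]; exact h3
  obtain ⟨c, hc⟩ := mem_line_of_orth hB hs0 h1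
  have h3 : c = 0 := by
    rw [hc, map_smul, LinearMap.smul_apply, hB.symm s p, hp, smul_eq_mul, mul_one] at hwp
    exact hwp
  exact hw (by rw [hc, h3, zero_smul])

/-- Singular vectors span. -/
theorem sing_span (h2 : (2 : F) ≠ 0) (hB : SymB B) {s : W} (hs0 : s ≠ 0)
    (hs : B s s = 0) (N : Submodule F W) (hN : ∀ t, B t t = 0 → t ∈ N) : N = ⊤ := by
  rw [eq_top_iff]
  intro w _
  obtain ⟨p, hp, hpp⟩ := exists_sing_partner h2 hB hs0 hs
  have h1 : ∀ a, B a s = 0 → a ∈ N := by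
    intro a ha
    have h3 := hN (Eg B s a p) (by rw [Eg_isom h2 hB hs ha]; exact hpp)
    rw [Eg_apply, hp, one_smul] at h3
    have e : a = (p + a - B p a • s - (B a a / 2) • (1 : F) • s) - p +
        (B p a + B a a / 2) • s := by module
    rw [e]
    exact N.add_mem (N.sub_mem h3 (hN p hpp)) (N.smul_mem _ (hN s hs))
  have h3 := h1 (w - B w s • p) (by
    rw [map_sub, map_smul, LinearMap.sub_apply, LinearMap.smul_apply, hp, smul_eq_mul, mul_one,
      sub_self])
  have h4 := N.add_mem h3 (N.smul_mem (B w s) (hN p hpp))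
  rwa [sub_add_cancel] at h4

/-- Two singular vectors are non-orthogonal or have a common non-orthogonal singular vector. -/
theorem exists_common (h2 : (2 : F) ≠ 0) (hB : SymB B) {s s' : W} (hs0 : s ≠ 0)
    (hs : B s s = 0) (hs0' : s' ≠ 0) (hss : B s s' = 0) :
    ∃ t, B t t = 0 ∧ B t s ≠ 0 ∧ B t s' ≠ 0 := by
  obtain ⟨p, hp, hpp⟩ := exists_sing_partner h2 hB hs0 hs
  by_cases h1 : B p s' = 0
  · obtain ⟨a, ha, has⟩ : ∃ a, B a s = 0 ∧ B a s' ≠ 0 := by
      by_contra hc
      push Not at hc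
      obtain ⟨c, hc'⟩ := mem_line_of_orth hB hs0 hc
      rw [hc', map_smul, hp, smul_eq_mul, mul_one] at h1
      exact hs0' (by rw [hc', h1, zero_smul])
    refine ⟨Eg B s a p, by rw [Eg_isom h2 hB hs ha]; exact hpp, ?_, ?_⟩
    · rw [Eg_apply, hp, one_smul]
      simp only [map_sub, map_add, map_smul, LinearMap.sub_apply, LinearMap.add_apply,
        LinearMap.smul_apply, hp, ha, hs, smul_zero, add_zero, sub_zero]
      exact one_ne_zero
    · rw [Eg_apply, hp, one_smul]
      simp only [map_sub, map_add, map_smul, LinearMap.sub_apply, LinearMap.add_apply,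
        LinearMap.smul_apply, h1, hss, smul_zero, zero_add, sub_zero]
      exact has
  · exact ⟨p, hpp, by rw [hp]; exact one_ne_zero, h1⟩

/-- The transvection groups at `x ⊗ s`, `s` singular, generate the symplectic group. -/
theorem TS.full_of_sing (h2 : (2 : F) ≠ 0) (h : TS A B Θ) {s₀ : W} (hs0 : s₀ ≠ 0)
    (hs : B s₀ s₀ = 0) (hfull : ∀ (x : U) (s : W), B s s = 0 → Full M (tn Θ x s)) :
    ∀ v : V, Full M v := by
  have hU : ∀ s s' : W, B s s' ≠ 0 → ∀ x : U, x ≠ 0 → ∃ x' : U, f (tn Θ x s) (tn Θ x' s') ≠ 0 := by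
    intro s s' hss x hx
    obtain ⟨x', hx'⟩ : ∃ x', A x x' ≠ 0 := by
      by_contra hc
      push Not at hc
      exact hx (h.ndA x hc)
    exact ⟨x', by rw [h.form']; exact mul_ne_zero hx' hss⟩
  refine full_of_connected ⟨1, one_ne_zero, fun h1 => h2 (by linear_combination h1)⟩
    {v | ∃ (x : U) (s : W), B s s = 0 ∧ tn Θ x s = v} ?_ ?_ ?_
  · rintro _ ⟨x, s, hs, rfl⟩
    exact hfull x s hs
  · intro v hv
    obtain ⟨x, hx⟩ : ∃ x, ct Θ A x v ≠ 0 := by
      by_contra hc
      push Not at hc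
      exact hv (h.extV (v' := 0) fun x => by rw [hc, map_zero])
    obtain ⟨t, ht, htw⟩ := exists_sing_nonorth h2 h.symB hs0 hs hx
    exact ⟨tn Θ x t, ⟨x, t, ht, rfl⟩, by rw [h.form_ct]; exact htw⟩
  · intro N hN0 hN1
    by_contra hcon
    push Not at hcon
    -- every singular `s` has `U ⊗ s` inside `N` or orthogonal to `N`
    have hcon' : ∀ (x : U) (s : W), B s s = 0 → tn Θ x s ∈ N ∨ ∀ w ∈ N, f w (tn Θ x s) = 0 := by
      intro x s hs
      by_cases hm : tn Θ x s ∈ N
      · exact Or.inl hm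
      · exact Or.inr (hcon _ ⟨x, s, hs, rfl⟩ hm)
    have htype : ∀ s : W, B s s = 0 →
        (∀ x, tn Θ x s ∈ N) ∨ ∀ x, ∀ w ∈ N, f w (tn Θ x s) = 0 := by
      intro s hs
      by_contra hc
      rw [not_or] at hc
      obtain ⟨h3, h4⟩ := hc
      push Not at h3 h4
      obtain ⟨x, hx⟩ := h3
      obtain ⟨x', w, hw, hx'⟩ := h4
      have hx2 := (hcon' x s hs).resolve_left hx
      have hx3 : tn Θ x' s ∈ N := by
        rcases hcon' x' s hs with h5 | h5
        · exact h5
        · exact absurd (h5 w hw) hx'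
      rcases hcon' (x + x') s hs with h5 | h5
      · rw [tn_add_left] at h5
        apply hx
        have := N.sub_mem h5 hx3
        rwa [add_sub_cancel_right] at this
      · have h6 := h5 w hw
        rw [tn_add_left, sympForm_add_right, hx2 w hw, zero_add] at h6
        exact hx' h6
    -- adjacency
    obtain ⟨x₀, hx₀⟩ : ∃ x : U, x ≠ 0 := by
      by_contra hc
      push Not at hc
      apply hN1
      rw [eq_top_iff]
      intro v _
      have : v = 0 := h.extV (v' := 0) fun x => by rw [hc x, ct_zero, ct_zero]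
      rw [this]
      exact N.zero_mem
    have hadj : ∀ s s' : W, B s s' ≠ 0 → (∀ x, tn Θ x s ∈ N) →
        ¬ ∀ x, ∀ w ∈ N, f w (tn Θ x s') = 0 := by
      intro s s' hss h3 h4
      obtain ⟨x', hx'⟩ := hU s s' hss x₀ hx₀
      exact hx' (h4 x' _ (h3 x₀))
    have hmove : ∀ s s' : W, B s' s' = 0 → B s s' ≠ 0 → (∀ x, tn Θ x s ∈ N) →
        ∀ x, tn Θ x s' ∈ N := fun s s' hs' hss h3 =>
      (htype s' hs').resolve_right (hadj s s' hss h3)
    have hmove2 : ∀ s s' : W, s ≠ 0 → B s s = 0 → s' ≠ 0 → B s' s' = 0 → (∀ x, tn Θ x s ∈ N) →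
        ∀ x, tn Θ x s' ∈ N := by
      intro s s' hs0 hs hs0' hs' h3
      by_cases hss : B s s' = 0
      · obtain ⟨t, ht, hts, hts'⟩ := exists_common h2 h.symB hs0 hs hs0' hss
        exact hmove t s' hs' hts' (hmove s t ht (by rw [h.symB.symm]; exact hts) h3)
      · exact hmove s s' hs' hss h3
    rcases htype s₀ hs with h3 | h3
    · -- everything is in `N`
      apply hN1
      have hall : ∀ (t : W), B t t = 0 → ∀ x, tn Θ x t ∈ N := by
        intro t ht x
        by_cases ht0 : t = 0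
        · rw [ht0, tn_zero_right]; exact N.zero_mem
        · exact hmove2 s₀ t hs0 hs ht0 ht h3 x
      rw [eq_top_iff]
      intro v _
      refine tn_induction (Θ := Θ) (P := fun v => v ∈ N) N.zero_mem ?_
        (fun x y hx hy => N.add_mem hx hy) v
      intro x w
      let N' : Submodule F W :=
        { carrier := {w | tn Θ x w ∈ N}
          zero_mem' := by
            change tn Θ x 0 ∈ N
            rw [tn_zero_right]; exact N.zero_mem
          add_mem' := fun {a b} ha hb => by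
            change tn Θ x (a + b) ∈ N
            rw [tn_add_right]; exact N.add_mem ha hb
          smul_mem' := fun c a ha => by
            change tn Θ x (c • a) ∈ N
            rw [tn_smul_right]; exact N.smul_mem c ha }
      have h4 : N' = ⊤ := sing_span h2 h.symB hs0 hs N' fun t ht => hall t ht x
      have h5 : w ∈ N' := by rw [h4]; trivial
      exact h5
    · obtain ⟨p, hp, hpp⟩ := exists_sing_partner h2 h.symB hs0 hs
      have hp0 : p ≠ 0 := by
        rintro rfl
        rw [map_zero, LinearMap.zero_apply] at hp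
        exact zero_ne_one hp
      have hall : ∀ (t : W), B t t = 0 → ∀ x, ∀ w ∈ N, f w (tn Θ x t) = 0 := by
        intro t ht
        by_cases ht0 : t = 0
        · intro x w _
          rw [ht0, tn_zero_right, sympForm_zero_right]
        · rcases htype t ht with h4 | h4
          · exfalso
            exact hadj p s₀ (by rw [hp]; exact one_ne_zero) (hmove2 t p ht0 ht hp0 hpp h4) h3
          · exact h4
      apply hN0
      rw [eq_bot_iff]
      intro v hv
      rw [Submodule.mem_bot]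
      by_contra hv0
      obtain ⟨x, hx⟩ : ∃ x, ct Θ A x v ≠ 0 := by
        by_contra hc
        push Not at hc
        exact hv0 (h.extV (v' := 0) fun x => by rw [hc, map_zero])
      obtain ⟨t, ht, htw⟩ := exists_sing_nonorth h2 h.symB hs0 hs hx
      apply htw
      rw [← h.form_ct]
      exact hall t ht x v hv

/-- **The alternative**: every `1 + x ⊗ S ct_x` in `M` has scalar `S`, or `M` is everything. -/
theorem TS.scalar_or_full (h2 : (2 : F) ≠ 0) (h : TS A B Θ) [FiniteDimensional F W]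
    (hdim : 3 ≤ Module.finrank F W)
    (hq : Module.finrank F W = 3 → ∃ t : F, t ≠ 0 ∧ t ^ 2 ≠ 1)
    {s₀ : W} (hs0 : s₀ ≠ 0) (hs : B s₀ s₀ = 0) (hH : ∀ g, InH Θ g → g ∈ M) :
    (∀ (x : U) (S : W →ₗ[F] W), x ≠ 0 → InAt Θ A M x S → ∃ c : F, S = c • LinearMap.id) ∨
      ∀ v : V, Full M v := by
  by_cases hex : ∃ s : W, s ≠ 0 ∧ B s s = 0 ∧ ¬ InS Θ A M (rk B s s)
  · left
    obtain ⟨s, hs0', hs', hns⟩ := hex
    intro x S hx hS
    obtain ⟨g, hg, hgv⟩ := hS
    exact scalar_of_not h2 h.symB (h.opSet h2 hH) hdim hq hs0' hs' hns (h.SA_of_InAt hx hgv)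
      (h.InAt_all hH hx ⟨g, hg, hgv⟩)
  · right
    push Not at hex
    refine h.full_of_sing h2 hs0 hs fun x s hss c => ?_
    by_cases hs0' : s = 0
    · rw [hs0', tn_zero_right]
      exact full_zero M c
    · obtain ⟨g, hg, hgv⟩ := h.InS_smul h2 (hex s hs0' hss) c x
      have e : transv (tn Θ x s) c = g := by
        apply ext_smul
        intro v
        rw [transv_smul, hgv, h.form_ct, LinearMap.smul_apply, rk_apply, tn_smul_right,
          tn_smul_right, smul_smul]
      rw [e]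
      exact hg

end Cfsg.Agent.H875.Ten
end

-- part: H875/TenPair
section
/-!
# Overgroups of `Sp(U) ⊗ O(W)`: elements `1 + (a ∧ w) ⊗ Z`
-/

set_option autoImplicit false
set_option linter.unusedSimpArgs false
open Cfsg
open scoped Matrix TensorProduct
open Cfsg.Agent.ClassicalGeometry.SympBasic Cfsg.Agent.ClassicalGeometry.SympSiegel

namespace Cfsg.Agent.H875.Ten

variable {F : Type*} [Field F] {m : ℕ}

local notation "V" => (Fin m ⊕ Fin m → F)
local notation "G" => Matrix.symplecticGroup (Fin m) F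
local notation "f" => sympForm m F

variable {U W : Type*} [AddCommGroup U] [Module F U] [AddCommGroup W] [Module F W]
variable {A : LinearMap.BilinForm F U} {B : LinearMap.BilinForm F W}
  {Θ : U ⊗[F] W ≃ₗ[F] (Fin m ⊕ Fin m → F)}

/-- A vector orthogonal to `w^⊥` is a multiple of `w`. -/
theorem TS.mem_line (h : TS A B Θ) {w a : U} (hw : w ≠ 0) (ha : ∀ z, A z w = 0 → A z a = 0) :
    ∃ c : F, a = c • w := by
  obtain ⟨p, hp⟩ : ∃ p, A w p ≠ 0 := by
    by_contra hc
    push Not at hc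
    exact hw (h.ndA w hc)
  have hp' : A p w ≠ 0 := by rw [h.swap]; exact neg_ne_zero.2 hp
  refine ⟨(A p w)⁻¹ * A p a, ?_⟩
  have h1 : a - ((A p w)⁻¹ * A p a) • w = 0 := by
    apply h.ndA
    intro z
    have h3 := ha (z - ((A p w)⁻¹ * A z w) • p) (by
      rw [map_sub, map_smul, LinearMap.sub_apply, LinearMap.smul_apply, smul_eq_mul]
      field_simp
      ring)
    rw [map_sub, map_smul, LinearMap.sub_apply, LinearMap.smul_apply, smul_eq_mul] at h3
    rw [map_sub, map_smul, LinearMap.sub_apply, LinearMap.smul_apply, smul_eq_mul, h.swap a z,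
      h.swap w z]
    linear_combination -h3
  exact sub_eq_zero.1 h1

/-- `M` contains `v ↦ v + a ⊗ K ct_w v - w ⊗ K ct_a v`. -/
def InP (Θ : U ⊗[F] W ≃ₗ[F] (Fin m ⊕ Fin m → F)) (A : LinearMap.BilinForm F U)
    (M : Subgroup (Matrix.symplecticGroup (Fin m) F)) (a w : U) (K : W →ₗ[F] W) : Prop :=
  ∃ g ∈ M, ∀ v, g • v = v + tn Θ a (K (ct Θ A w v)) - tn Θ w (K (ct Θ A a v))

variable {M : Subgroup (Matrix.symplecticGroup (Fin m) F)}

theorem TS.InP_isom (h : TS A B Θ) (hH : ∀ g, InH Θ g → g ∈ M) {σ : U →ₗ[F] U}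
    (hσ : ∀ u u', A (σ u) (σ u') = A u u') {a w : U} {K : W →ₗ[F] W} (hK : InP Θ A M a w K) :
    InP Θ A M (σ a) (σ w) K := by
  obtain ⟨g, hg, hgv⟩ := hK
  obtain ⟨k, hk, hku⟩ := h.exists_U hσ
  refine ⟨k * g * k⁻¹, M.mul_mem (M.mul_mem (hH k hk) hg) (M.inv_mem (hH k hk)), fun v => ?_⟩
  have h1 : ∀ x, ct Θ A x (k⁻¹ • v) = ct Θ A (σ x) v := fun x =>
    h.extW fun w => h.ct_inv (y := id) (fun w => hku x w) v w
  rw [mul_smul, mul_smul, hgv, smul_sub, smul_add', smul_inv_smul, hku, hku, h1, h1]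

theorem TS.InP_conj (h : TS A B Θ) (hH : ∀ g, InH Θ g → g ∈ M) {y y' : W →ₗ[F] W}
    (hy : ∀ w w', B (y w) (y w') = B w w') (hyy : ∀ w, y (y' w) = w) {a w : U} {K : W →ₗ[F] W}
    (hK : InP Θ A M a w K) : InP Θ A M a w (y ∘ₗ K ∘ₗ y') := by
  obtain ⟨g, hg, hgv⟩ := hK
  obtain ⟨k, hk, hku⟩ := h.exists_W hy
  refine ⟨k * g * k⁻¹, M.mul_mem (M.mul_mem (hH k hk) hg) (M.inv_mem (hH k hk)), fun v => ?_⟩
  have h1 : ∀ x, ct Θ A x (k⁻¹ • v) = y' (ct Θ A x v) := by
    intro x
    apply h.extW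
    intro w
    rw [h.ct_inv (y := y) (fun w => hku x w), ← hy (y' _) w, hyy]
  rw [mul_smul, mul_smul, hgv, smul_sub, smul_add', smul_inv_smul, hku, hku, h1, h1]
  rfl

theorem TS.InP_sub (h : TS A B Θ) {a w : U} (haw : A a w = 0) {K L : W →ₗ[F] W}
    (hK : InP Θ A M a w K) (hL : InP Θ A M a w L) : InP Θ A M a w (K - L) := by
  have hwa : A w a = 0 := by rw [h.swap, haw, neg_zero]
  obtain ⟨g, hg, hgv⟩ := hK
  obtain ⟨k, hk, hkv⟩ := hL
  have hki : ∀ v, k⁻¹ • v = v - tn Θ a (L (ct Θ A w v)) + tn Θ w (L (ct Θ A a v)) := by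
    intro v
    rw [inv_smul_eq_iff, hkv]
    simp only [map_add, map_sub, ct_tn, h.alt, haw, hwa, zero_smul, sub_zero, add_zero]
    abel
  refine ⟨g * k⁻¹, M.mul_mem hg (M.inv_mem hk), fun v => ?_⟩
  rw [mul_smul, hki, hgv]
  simp only [map_add, map_sub, ct_tn, h.alt, haw, hwa, zero_smul, sub_zero, add_zero,
    LinearMap.sub_apply, tn_sub_right]
  abel

/-- The commutator of two such elements. -/
theorem TS.InP_comm (h : TS A B Θ) {a a' w : U} (haw : A a w = 0) (haw' : A a' w = 0)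
    {K L : W →ₗ[F] W} (hK : InP Θ A M a w K) (hL : InP Θ A M a' w L) :
    InAt Θ A M w (A a a' • (K ∘ₗ L + L ∘ₗ K)) := by
  have hwa : A w a = 0 := by rw [h.swap, haw, neg_zero]
  have hwa' : A w a' = 0 := by rw [h.swap, haw', neg_zero]
  obtain ⟨g, hg, hgv⟩ := hK
  obtain ⟨k, hk, hkv⟩ := hL
  refine ⟨g * k * (k * g)⁻¹, M.mul_mem (M.mul_mem hg hk) (M.inv_mem (M.mul_mem hk hg)),
    fun v => ?_⟩
  obtain ⟨v, rfl⟩ : ∃ v', v = (k * g) • v' := ⟨(k * g)⁻¹ • v, by rw [smul_inv_smul]⟩
  rw [mul_smul, inv_smul_smul, mul_smul, mul_smul, hgv, hgv, hkv, hkv]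
  simp only [map_add, map_sub, ct_tn, h.alt, haw, hwa, haw', hwa', zero_smul, sub_zero, add_zero,
    LinearMap.sub_apply, LinearMap.add_apply, LinearMap.smul_apply, LinearMap.comp_apply,
    tn_sub_right, tn_add_right, tn_smul_right, smul_add, smul_sub, map_smul, h.swap a' a, neg_smul,
    tn_neg_right, map_zero, tn_zero_right, map_neg, smul_zero, neg_zero, sub_zero, add_zero]
  abel

/-- **Skew pairs vanish**: if all `1 + x ⊗ S ct_x` in `M` are scalar, then
`1 + (a ∧ w) ⊗ K` in `M`, `K` skew, gives `K = 0`. -/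
theorem TS.pair_zero (h2 : (2 : F) ≠ 0) (h : TS A B Θ) [FiniteDimensional F W]
    (hdim : 3 ≤ Module.finrank F W) {s₀ : W} (hs0 : s₀ ≠ 0) (hs : B s₀ s₀ = 0)
    (hH : ∀ g, InH Θ g → g ∈ M)
    (hscal : ∀ (x : U) (S : W →ₗ[F] W), x ≠ 0 → InAt Θ A M x S → ∃ c : F, S = c • LinearMap.id)
    {a w : U} (hw : w ≠ 0) (haw : A a w = 0) (ha : ∀ c : F, a ≠ c • w) {K : W →ₗ[F] W}
    (hK : Sk B K) (hKM : InP Θ A M a w K) : K = 0 := by
  obtain ⟨z, hzw, hza⟩ : ∃ z, A z w = 0 ∧ A z a ≠ 0 := by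
    by_contra hc
    push Not at hc
    obtain ⟨c, hc'⟩ := h.mem_line hw hc
    exact ha c hc'
  have hwz : A w z = 0 := by rw [h.swap, hzw, neg_zero]
  let σ : U →ₗ[F] U := LinearMap.id + rk A z z
  have hσ : ∀ u u', A (σ u) (σ u') = A u u' := by
    intro u u'
    simp only [σ, LinearMap.add_apply, LinearMap.id_apply, rk_apply, map_add, map_smul,
      LinearMap.smul_apply, smul_eq_mul, h.alt, h.swap z u']
    ring
  have hσw : σ w = w := by
    simp only [σ, LinearMap.add_apply, LinearMap.id_apply, rk_apply, hwz, zero_smul, add_zero]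
  have hσa : A a (σ a) ≠ 0 := by
    simp only [σ, LinearMap.add_apply, LinearMap.id_apply, rk_apply, map_add, map_smul, h.alt,
      smul_eq_mul, zero_add, h.swap a z]
    simpa using hza
  have haw' : A (σ a) w = 0 := by
    conv_lhs => rw [← hσw]
    rw [hσ, haw]
  have hQ : SkewSet B (InP Θ A M a w) :=
    { sub := fun hK hL => h.InP_sub haw hK hL
      conj := fun y y' hy hyy _ _ hK => h.InP_conj hH hy hyy hK }
  refine skew_eq_zero h2 h.symB hdim hQ ?_ hs0 hs hK hKM
  intro K L hK hL _ _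
  have hL' : InP Θ A M (σ a) w L := by
    have := h.InP_isom hH hσ hL
    rwa [hσw] at this
  obtain ⟨c, hc⟩ := hscal w _ hw (h.InP_comm haw haw' hK hL')
  refine ⟨(A a (σ a))⁻¹ * c, ?_⟩
  rw [mul_smul, ← hc, smul_smul, inv_mul_cancel₀ hσa, one_smul]

end Cfsg.Agent.H875.Ten
end

-- part: H879/TenR
section
/-!
# Overgroups of `Sp(U) ⊗ O(W)`: the unipotent radical of the stabiliser of `a ⊗ W` (helper879)
-/

set_option autoImplicit false
set_option linter.unusedSimpArgs false
open Cfsg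
open scoped Matrix TensorProduct
open Cfsg.Agent.ClassicalGeometry.SympBasic Cfsg.Agent.ClassicalGeometry.SympSiegel

namespace Cfsg.Agent.H879.TenS

open Cfsg.Agent.H875 Cfsg.Agent.H875.Ten

variable {F : Type*} [Field F] {m : ℕ}

local notation "V" => (Fin m ⊕ Fin m → F)
local notation "G" => Matrix.symplecticGroup (Fin m) F
local notation "f" => sympForm m F

variable {U W : Type*} [AddCommGroup U] [Module F U] [AddCommGroup W] [Module F W]
variable {A : LinearMap.BilinForm F U} {B : LinearMap.BilinForm F W}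
  {Θ : U ⊗[F] W ≃ₗ[F] (Fin m ⊕ Fin m → F)} {M : Subgroup (Matrix.symplecticGroup (Fin m) F)}

/-- `M` contains `v ↦ v + b ⊗ δ' ct_a v + a ⊗ δ ct_b v + a ⊗ γ ct_a v`. -/
def InR (Θ : U ⊗[F] W ≃ₗ[F] (Fin m ⊕ Fin m → F)) (A : LinearMap.BilinForm F U)
    (M : Subgroup (Matrix.symplecticGroup (Fin m) F)) (a b : U) (δ δ' γ : W →ₗ[F] W) : Prop :=
  ∃ g ∈ M, ∀ v, g • v = v + tn Θ b (δ' (ct Θ A a v)) + tn Θ a (δ (ct Θ A b v)) +
    tn Θ a (γ (ct Θ A a v))

theorem InR_isom (h : TS A B Θ) (hH : ∀ g, InH Θ g → g ∈ M) {σ : U →ₗ[F] U}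
    (hσ : ∀ u u', A (σ u) (σ u') = A u u') {a b : U} {δ δ' γ : W →ₗ[F] W}
    (hK : InR Θ A M a b δ δ' γ) : InR Θ A M (σ a) (σ b) δ δ' γ := by
  obtain ⟨g, hg, hgv⟩ := hK
  obtain ⟨k, hk, hku⟩ := h.exists_U hσ
  refine ⟨k * g * k⁻¹, M.mul_mem (M.mul_mem (hH k hk) hg) (M.inv_mem (hH k hk)), fun v => ?_⟩
  have h1 : ∀ x, ct Θ A x (k⁻¹ • v) = ct Θ A (σ x) v := fun x =>
    h.extW fun w => h.ct_inv (y := id) (fun w => hku x w) v w
  rw [mul_smul, mul_smul, hgv, smul_add', smul_add', smul_add', smul_inv_smul, hku, hku, hku, h1, h1]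

/-- Products of such elements. -/
theorem InR_mul (h : TS A B Θ) {a b : U} (hab : A a b = 0) {δ₁ δ₁' γ₁ δ₂ δ₂' γ₂ : W →ₗ[F] W}
    (h1 : InR Θ A M a b δ₁ δ₁' γ₁) (h2 : InR Θ A M a b δ₂ δ₂' γ₂) :
    InR Θ A M a b (δ₁ + δ₂) (δ₁' + δ₂') (γ₁ + γ₂) := by
  have hba : A b a = 0 := by rw [h.swap, hab, neg_zero]
  obtain ⟨g, hg, hgv⟩ := h1
  obtain ⟨k, hk, hkv⟩ := h2
  refine ⟨g * k, M.mul_mem hg hk, fun v => ?_⟩
  rw [mul_smul, hkv, hgv]
  simp only [map_add, map_sub, ct_tn, h.alt, hab, hba, zero_smul, sub_zero, add_zero,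
    LinearMap.add_apply, tn_add_right]
  abel

/-- `-1` on a hyperbolic plane. -/
theorem exists_neg (h : TS A B Θ) {a b z : U} (hab : A a b = 0) (hza : A z a = 0)
    (hzb : A z b ≠ 0) : ∃ σ : U →ₗ[F] U, (∀ u u', A (σ u) (σ u') = A u u') ∧ σ a = a ∧ σ b = -b := by
  refine ⟨LinearMap.id - (2 / A z b) • (rk A b z - rk A z b), ?_, ?_, ?_⟩
  · intro u u'
    simp only [LinearMap.sub_apply, LinearMap.id_apply, LinearMap.smul_apply, rk_apply, map_sub,
      map_smul, smul_eq_mul, h.alt, h.swap b u', h.swap z u', h.swap b z]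
    field_simp
    ring
  · simp only [LinearMap.sub_apply, LinearMap.id_apply, LinearMap.smul_apply, rk_apply, hab,
      h.swap a z, hza, neg_zero, zero_smul, sub_zero, smul_zero]
  · simp only [LinearMap.sub_apply, LinearMap.id_apply, LinearMap.smul_apply, rk_apply, h.alt,
      h.swap b z, zero_smul, zero_sub, neg_smul, neg_neg, smul_smul]
    rw [div_mul_cancel₀ _ hzb]
    module

/-- The third component is scalar. -/
theorem scalar_gamma (h2 : (2 : F) ≠ 0) (h : TS A B Θ) (hH : ∀ g, InH Θ g → g ∈ M)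
    (hscal : ∀ (x : U) (S : W →ₗ[F] W), x ≠ 0 → InAt Θ A M x S → ∃ c : F, S = c • LinearMap.id)
    {a b : U} (ha : a ≠ 0) (hab : A a b = 0) (hb : ∀ c : F, b ≠ c • a) {δ δ' γ : W →ₗ[F] W}
    (hK : InR Θ A M a b δ δ' γ) : ∃ c : F, γ = c • LinearMap.id := by
  obtain ⟨z, hza, hzb⟩ : ∃ z, A z a = 0 ∧ A z b ≠ 0 := by
    by_contra hc
    push Not at hc
    obtain ⟨c, hc'⟩ := h.mem_line ha hc
    exact hb c hc'
  obtain ⟨σ, hσ, hσa, hσb⟩ := exists_neg h hab hza hzb
  have h3 := InR_isom h hH hσ hK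
  rw [hσa, hσb] at h3
  have h4 : InR Θ A M a b (-δ) (-δ') γ := by
    obtain ⟨g, hg, hgv⟩ := h3
    refine ⟨g, hg, fun v => ?_⟩
    rw [hgv, ct_neg, map_neg, tn_neg_left, tn_neg_right, LinearMap.neg_apply, LinearMap.neg_apply,
      tn_neg_right, tn_neg_right]
  obtain ⟨g, hg, hgv⟩ := InR_mul h hab hK h4
  obtain ⟨c, hc⟩ := hscal a (γ + γ) ha ⟨g, hg, fun v => by
    rw [hgv]
    simp only [add_neg_cancel, LinearMap.zero_apply, tn_zero_right, add_zero]⟩
  refine ⟨c / 2, ?_⟩
  have h5 : (2 : F) • γ = c • LinearMap.id := by rw [two_smul, hc]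
  have h6 : γ = (2 : F)⁻¹ • (2 : F) • γ := by rw [smul_smul, inv_mul_cancel₀ h2, one_smul]
  rw [h6, h5, smul_smul]
  congr 1
  field_simp

/-- The element `1 + c a ⊗ ct_a`. -/
theorem InR_t (h : TS A B Θ) (hH : ∀ g, InH Θ g → g ∈ M) (a b : U) (c : F) :
    InR Θ A M a b 0 0 (c • LinearMap.id) := by
  obtain ⟨g, hg, hgv⟩ := h.exists_tU a c
  refine ⟨g, hH g hg, fun v => ?_⟩
  rw [hgv]
  simp only [LinearMap.zero_apply, tn_zero_right, add_zero, LinearMap.smul_apply, tn_smul_right,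
    LinearMap.id_apply]

/-- The element `1 + c (a ⊗ ct_b + b ⊗ ct_a)`. -/
theorem InR_e (h : TS A B Θ) (hH : ∀ g, InH Θ g → g ∈ M) {a b : U} (hab : A a b = 0) (c : F) :
    InR Θ A M a b (c • LinearMap.id) (c • LinearMap.id) 0 := by
  obtain ⟨g, hg, hgv⟩ := h.exists_eU (x := a) (y := c • b) (by rw [map_smul, hab, smul_zero])
  refine ⟨g, hH g hg, fun v => ?_⟩
  rw [hgv]
  simp only [LinearMap.zero_apply, tn_zero_right, add_zero, LinearMap.smul_apply, tn_smul_right,
    LinearMap.id_apply, tn_smul_left, ct_smul]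

/-- **Elements `1 + b ⊗ δ' ct_a + a ⊗ δ ct_b + a ⊗ γ ct_a` of `M` have scalar `δ`.** -/
theorem scalar_of_InR (h2 : (2 : F) ≠ 0) (h : TS A B Θ) [FiniteDimensional F W]
    (hdim : 3 ≤ Module.finrank F W) {s₀ : W} (hs0 : s₀ ≠ 0) (hs : B s₀ s₀ = 0)
    (hH : ∀ g, InH Θ g → g ∈ M)
    (hscal : ∀ (x : U) (S : W →ₗ[F] W), x ≠ 0 → InAt Θ A M x S → ∃ c : F, S = c • LinearMap.id)
    {a b : U} (ha : a ≠ 0) (hab : A a b = 0) (hb : ∀ c : F, b ≠ c • a) {δ δ' γ : W →ₗ[F] W}
    (hδ : ∀ x y, B (δ' x) y = B x (δ y)) (hK : InR Θ A M a b δ δ' γ) :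
    ∃ c : F, δ = c • LinearMap.id := by
  have hba : A b a = 0 := by rw [h.swap, hab, neg_zero]
  obtain ⟨z, hza, hzb⟩ : ∃ z, A z a = 0 ∧ A z b ≠ 0 := by
    by_contra hc
    push Not at hc
    obtain ⟨c, hc'⟩ := h.mem_line ha hc
    exact hb c hc'
  have haz : A a z = 0 := by rw [h.swap, hza, neg_zero]
  obtain ⟨c₁, hc₁⟩ := scalar_gamma h2 h hH hscal ha hab hb hK
  -- remove `γ`
  have hK1 : InR Θ A M a b δ δ' 0 := by
    have := InR_mul h hab hK (InR_t h hH a b (-c₁))
    rwa [add_zero, add_zero, hc₁, ← add_smul, add_neg_cancel, zero_smul] at this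
  -- `δ + δ'` is scalar
  obtain ⟨c₂, hc₂⟩ : ∃ c : F, δ + δ' = c • LinearMap.id := by
    obtain ⟨g, hg, hgv⟩ := hK1
    obtain ⟨e, he, hev⟩ := InR_e h hH (a := a) (b := z) haz 1
    have key : InAt Θ A M a (A z b • (δ + δ')) := by
      refine ⟨g * e * (e * g)⁻¹, M.mul_mem (M.mul_mem hg he) (M.inv_mem (M.mul_mem he hg)),
        fun v => ?_⟩
      obtain ⟨v, rfl⟩ : ∃ v', v = (e * g) • v' := ⟨(e * g)⁻¹ • v, by rw [smul_inv_smul]⟩
      rw [mul_smul, inv_smul_smul, mul_smul, mul_smul, hgv, hgv, hev, hev]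
      simp only [map_add, map_sub, ct_tn, h.alt, hab, hba, hza, haz, zero_smul, sub_zero, add_zero,
        LinearMap.sub_apply, LinearMap.add_apply, LinearMap.smul_apply, LinearMap.zero_apply,
        LinearMap.id_apply, one_smul, h.swap b z, tn_sub_right, tn_add_right, tn_smul_right,
        map_smul, neg_smul, tn_neg_right, map_zero, tn_zero_right, map_neg, smul_zero, neg_zero,
        zero_add]
      module
    obtain ⟨c, hc⟩ := hscal a _ ha key
    refine ⟨(A z b)⁻¹ * c, ?_⟩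
    rw [mul_smul, ← hc, smul_smul, inv_mul_cancel₀ hzb, one_smul]
  -- the skew part
  set K : W →ₗ[F] W := δ - (c₂ / 2) • LinearMap.id with hKdef
  have hδ' : δ' = c₂ • LinearMap.id - δ := by rw [← hc₂]; abel
  have hsk : Sk B (-K) := by
    intro x y
    have h1 := hδ x y
    rw [hδ'] at h1
    simp only [hKdef, LinearMap.neg_apply, LinearMap.sub_apply, LinearMap.smul_apply,
      LinearMap.id_apply, map_sub, map_smul, map_neg, smul_eq_mul] at h1 ⊢
    have h3 : (c₂ / 2) * 2 = c₂ := div_mul_cancel₀ _ h2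
    linear_combination h1 + (B x y) * h3
  have hKM : InP Θ A M b a (-K) := by
    obtain ⟨g, hg, hgv⟩ := InR_mul h hab hK1 (InR_e h hH hab (-(c₂ / 2)))
    refine ⟨g, hg, fun v => ?_⟩
    rw [hgv, hδ']
    have h3 : c₂ = (c₂ / 2) + (c₂ / 2) := by field_simp; ring
    simp only [hKdef, LinearMap.neg_apply, LinearMap.sub_apply, LinearMap.smul_apply,
      LinearMap.add_apply, LinearMap.id_apply, LinearMap.zero_apply, tn_sub_right, tn_add_right,
      tn_smul_right, tn_neg_right, tn_zero_right, neg_smul, add_zero]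
    nth_rewrite 1 [h3]
    module
  have h0 := h.pair_zero h2 hdim hs0 hs hH hscal ha hba hb hsk hKM
  refine ⟨c₂ / 2, ?_⟩
  rw [neg_eq_zero] at h0
  exact sub_eq_zero.1 h0

end Cfsg.Agent.H879.TenS
end

-- part: H879/TenStab
section
/-!
# Overgroups of `Sp(U) ⊗ O(W)`: the stabiliser of `a ⊗ W` respects the tensor structure (helper879)
-/

set_option autoImplicit false
set_option linter.unusedSimpArgs false
open Cfsg
open scoped Matrix TensorProduct
open Cfsg.Agent.ClassicalGeometry.SympBasic Cfsg.Agent.ClassicalGeometry.SympSiegel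

namespace Cfsg.Agent.H879.TenS

open Cfsg.Agent.H875 Cfsg.Agent.H875.Ten

variable {F : Type*} [Field F] {m : ℕ}

local notation "V" => (Fin m ⊕ Fin m → F)
local notation "G" => Matrix.symplecticGroup (Fin m) F
local notation "f" => sympForm m F

variable {U W : Type*} [AddCommGroup U] [Module F U] [AddCommGroup W] [Module F W]
variable {A : LinearMap.BilinForm F U} {B : LinearMap.BilinForm F W}
  {Θ : U ⊗[F] W ≃ₗ[F] (Fin m ⊕ Fin m → F)} {M : Subgroup (Matrix.symplecticGroup (Fin m) F)}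

/-- The contraction `u ⊗ w ↦ B(w,x) u`. -/
noncomputable def rt (Θ : U ⊗[F] W ≃ₗ[F] (Fin m ⊕ Fin m → F)) (B : LinearMap.BilinForm F W)
    (x : W) : (Fin m ⊕ Fin m → F) →ₗ[F] U :=
  (TensorProduct.rid F U).toLinearMap ∘ₗ TensorProduct.map LinearMap.id (B.flip x) ∘ₗ
    Θ.symm.toLinearMap

theorem rt_tn (x w : W) (u : U) : rt Θ B x (tn Θ u w) = B w x • u := by
  simp [rt, tn]

theorem rt_ct (x : W) (u : U) (v : V) : A (rt Θ B x v) u = B (ct Θ A u v) x := by
  refine tn_induction (Θ := Θ) (P := fun v => A (rt Θ B x v) u = B (ct Θ A u v) x) ?_ ?_ ?_ v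
  · simp
  · intro u' w
    rw [rt_tn, ct_tn, map_smul, map_smul, LinearMap.smul_apply, LinearMap.smul_apply, smul_eq_mul,
      smul_eq_mul, mul_comm]
  · intro a b ha hb
    rw [map_add, map_add, map_add, map_add, LinearMap.add_apply, LinearMap.add_apply, ha, hb]

/-- `w ↦ u ⊗ w` as a linear map. -/
noncomputable def tnL (Θ : U ⊗[F] W ≃ₗ[F] (Fin m ⊕ Fin m → F)) (u : U) :
    W →ₗ[F] (Fin m ⊕ Fin m → F) where
  toFun w := tn Θ u w
  map_add' := tn_add_right u
  map_smul' c w := tn_smul_right c u w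

theorem tnL_apply (u : U) (w : W) : tnL Θ u w = tn Θ u w := rfl

/-- The action of a group element as a linear map. -/
noncomputable def gL (g : G) : V →ₗ[F] V where
  toFun v := g • v
  map_add' := smul_add' g
  map_smul' c v := by rw [RingHom.id_apply]; exact (smul_comm g c v)

theorem gL_apply (g : G) (v : V) : gL g v = g • v := rfl

/-- Existence of adjoints. -/
theorem exists_adj (hB : SymB B) [FiniteDimensional F W] (ω : W →ₗ[F] W) :
    ∃ ω' : W →ₗ[F] W, ∀ x y, B (ω' x) y = B x (ω y) := by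
  have hnd : B.Nondegenerate := by
    refine ⟨fun x hx => hB.nd x hx, fun x hx => hB.nd x fun y => by rw [hB.symm]; exact hx y⟩
  refine ⟨(B.toDual hnd).symm.toLinearMap ∘ₗ
    { toFun := fun x => (B x) ∘ₗ ω, map_add' := ?_, map_smul' := ?_ }, fun x y => ?_⟩
  · intro x y; ext w; simp
  · intro c x; ext w; simp
  · have := LinearMap.BilinForm.apply_toDual_symm_apply (B := B) (hB := hnd) ((B x) ∘ₗ ω) y
    simp

theorem tn_injective (h : TS A B Θ) {u : U} (hu : u ≠ 0) {w w' : W} (hw : tn Θ u w = tn Θ u w') :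
    w = w' := by
  obtain ⟨z, hz⟩ : ∃ z, A u z ≠ 0 := by
    by_contra hc
    push Not at hc
    exact hu (h.ndA u hc)
  have h1 := congrArg (ct Θ A z) hw
  rw [ct_tn, ct_tn] at h1
  exact smul_right_injective W hz h1

/-- The restriction of `g` to `a ⊗ W` is a similitude. -/
theorem exists_simil (h : TS A B Θ) [FiniteDimensional F W] [Nontrivial W]
    (hH : ∀ g, InH Θ g → g ∈ M)
    (hscal : ∀ (x : U) (S : W →ₗ[F] W), x ≠ 0 → InAt Θ A M x S → ∃ c : F, S = c • LinearMap.id)
    {a : U} (ha : a ≠ 0) {g : G} (hg : g ∈ M) {ζ : W →ₗ[F] W}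
    (hgζ : ∀ w, g • tn Θ a w = tn Θ a (ζ w)) :
    ∃ (c : F) (ζ' : W →ₗ[F] W), c ≠ 0 ∧ (∀ x y, B (ζ' x) y = B x (ζ y)) ∧ (∀ w, ζ (ζ' w) = c • w) ∧
      (∀ w, ζ' (ζ w) = c • w) ∧ (∀ w, g⁻¹ • tn Θ a w = tn Θ a (c⁻¹ • ζ' w)) ∧
      (∀ v, ct Θ A a (g • v) = c⁻¹ • ζ (ct Θ A a v)) := by
  obtain ⟨ζ', hζ'⟩ := exists_adj h.symB ζ
  have h1 : ∀ v, ct Θ A a (g⁻¹ • v) = ζ' (ct Θ A a v) := fun v => h.extW fun w => by
    rw [h.ct_inv hgζ, hζ']
  obtain ⟨t, ht, htv⟩ := h.exists_tU a 1
  obtain ⟨c, hc⟩ := hscal a (ζ ∘ₗ ζ') ha ⟨g * t * g⁻¹, M.mul_mem (M.mul_mem hg (hH t ht))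
    (M.inv_mem hg), fun v => by
      rw [mul_smul, mul_smul, htv, smul_add', smul_inv_smul, one_smul, h1, hgζ]
      rfl⟩
  have hc1 : ∀ w, ζ (ζ' w) = c • w := fun w => by
    have := congrArg (fun L : W →ₗ[F] W => L w) hc
    exact this
  have hinj : ∀ w, ζ w = 0 → w = 0 := by
    intro w hw
    have h3 := hgζ w
    rw [hw, tn_zero_right, smul_eq_iff_eq_inv_smul, smul_zero] at h3
    exact tn_injective h ha (h3.trans (tn_zero_right a).symm)
  have hc0 : c ≠ 0 := by
    rintro rfl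
    obtain ⟨w, hw⟩ := exists_ne (0 : W)
    apply hw
    apply hinj
    apply h.symB.nd
    intro y
    rw [h.symB.symm, ← hζ', hinj (ζ' y) (by rw [hc1, zero_smul]), map_zero, LinearMap.zero_apply]
  have hc2 : ∀ w, ζ' (ζ w) = c • w := fun w => by
    have h4 : ζ (ζ' (ζ w) - c • w) = 0 := by rw [map_sub, hc1, map_smul, sub_self]
    exact sub_eq_zero.1 (hinj _ h4)
  refine ⟨c, ζ', hc0, hζ', hc1, hc2, fun w => ?_, fun v => ?_⟩
  · rw [inv_smul_eq_iff, hgζ, map_smul, hc1, smul_smul, inv_mul_cancel₀ hc0, one_smul]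
  · have h5 := h1 (g • v)
    rw [inv_smul_smul] at h5
    rw [h5, hc1, smul_smul, inv_mul_cancel₀ hc0, one_smul]

/-- Step A: contractions of `g (b₁ ⊗ x)` with vectors of `a^⊥`. -/
theorem ct_image (h2 : (2 : F) ≠ 0) (h : TS A B Θ) [FiniteDimensional F W] [Nontrivial W]
    (hdim : 3 ≤ Module.finrank F W) {s₀ : W} (hs0 : s₀ ≠ 0) (hs : B s₀ s₀ = 0)
    (hH : ∀ g, InH Θ g → g ∈ M)
    (hscal : ∀ (x : U) (S : W →ₗ[F] W), x ≠ 0 → InAt Θ A M x S → ∃ c : F, S = c • LinearMap.id)
    {a : U} (ha : a ≠ 0) {g : G} (hg : g ∈ M) {ζ : W →ₗ[F] W}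
    (hgζ : ∀ w, g • tn Θ a w = tn Θ a (ζ w)) {b b₁ : U} (hab : A a b = 0) (hab₁ : A a b₁ = 0)
    (hb₁ : ∀ c : F, b₁ ≠ c • a) : ∃ l : F, ∀ x, ct Θ A b (g • tn Θ b₁ x) = l • ζ x := by
  obtain ⟨c, ζ', hc0, hadj, hc1, hc2, hginv, hctg⟩ := exists_simil h hH hscal ha hg hgζ
  have hb₁a : A b₁ a = 0 := by rw [h.swap, hab₁, neg_zero]
  obtain ⟨e, he, hev⟩ := InR_e h hH hab 1
  obtain ⟨t, ht, htv⟩ := h.exists_tU b₁ 1
  -- `δ x = c⁻¹ ζ' ct_b (g (b₁ ⊗ x))`
  let δ : W →ₗ[F] W := c⁻¹ • (ζ' ∘ₗ ct Θ A b ∘ₗ gL g ∘ₗ tnL Θ b₁)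
  let η : W →ₗ[F] W := c⁻¹ • (ct Θ A b₁ ∘ₗ gL g⁻¹ ∘ₗ tnL Θ b ∘ₗ ζ)
  have hδ : ∀ x, δ x = c⁻¹ • ζ' (ct Θ A b (g • tn Θ b₁ x)) := fun x => rfl
  have hη : ∀ x, η x = c⁻¹ • ct Θ A b₁ (g⁻¹ • tn Θ b (ζ x)) := fun x => rfl
  have hadj2 : ∀ x y, B (-η x) y = B x (δ y) := by
    intro x y
    have e1 : B (ct Θ A b₁ (g⁻¹ • tn Θ b (ζ x))) y = -B (ζ' (ct Θ A b (g • tn Θ b₁ y))) x := by
      rw [← h.form_ct, ← form_smul g, smul_inv_smul, h.form_ct', hadj]
    have e2 : B (η x) y = c⁻¹ * B (ct Θ A b₁ (g⁻¹ • tn Θ b (ζ x))) y := by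
      rw [hη]
      simp only [LinearMap.map_smul, LinearMap.smul_apply, smul_eq_mul]
    have e3 : B x (δ y) = c⁻¹ * B (ζ' (ct Θ A b (g • tn Θ b₁ y))) x := by
      rw [hδ, h.symB.symm]
      simp only [LinearMap.map_smul, LinearMap.smul_apply, smul_eq_mul]
    rw [LinearMap.map_neg, LinearMap.neg_apply, e2, e1, e3]
    ring
  -- the conjugate `E`
  have hE : ∀ v, (g⁻¹ * e * g) • v = v + g⁻¹ • tn Θ b (c⁻¹ • ζ (ct Θ A a v)) +
      tn Θ a (c⁻¹ • ζ' (ct Θ A b (g • v))) := by
    intro v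
    rw [mul_smul, mul_smul, hev, smul_add', smul_add', smul_add', inv_smul_smul, hctg, hginv]
    simp only [LinearMap.smul_apply, LinearMap.id_apply, LinearMap.zero_apply, one_smul,
      tn_zero_right, smul_zero, add_zero]
  have hca : ∀ y, ct Θ A a (g⁻¹ • tn Θ b y) = 0 := by
    intro y
    have h5 := hctg (g⁻¹ • tn Θ b y)
    rw [smul_inv_smul, ct_tn, h.swap b a, hab, neg_zero, zero_smul] at h5
    have h6 : c⁻¹ • ζ' (c • (c⁻¹ • ζ (ct Θ A a (g⁻¹ • tn Θ b y)))) = 0 := by
      rw [← h5, smul_zero, map_zero, smul_zero]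
    rw [smul_smul, mul_inv_cancel₀ hc0, one_smul, hc2, smul_smul, inv_mul_cancel₀ hc0, one_smul] at h6
    exact h6
  have hEM : g⁻¹ * e * g ∈ M := M.mul_mem (M.mul_mem (M.inv_mem hg) he) hg
  have htM : t ∈ M := hH t ht
  have hR : InR Θ A M a b₁ (-δ) η (δ ∘ₗ η) := by
    refine ⟨t * (g⁻¹ * e * g) * (g⁻¹ * e * g * t)⁻¹, M.mul_mem (M.mul_mem htM hEM)
      (M.inv_mem (M.mul_mem hEM htM)), fun v => ?_⟩
    obtain ⟨v, rfl⟩ : ∃ v', v = (g⁻¹ * e * g * t) • v' :=
      ⟨(g⁻¹ * e * g * t)⁻¹ • v, by rw [smul_inv_smul]⟩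
    have htv' : ∀ v, t • v = v + tn Θ b₁ (ct Θ A b₁ v) := fun v => by rw [htv, one_smul]
    have e1 : ct Θ A a (t • v) = ct Θ A a v := by
      rw [htv', map_add, ct_tn, hb₁a, zero_smul, add_zero]
    have e2 : (g⁻¹ * e * g) • t • v = v + tn Θ b₁ (ct Θ A b₁ v) +
        g⁻¹ • tn Θ b (c⁻¹ • ζ (ct Θ A a v)) + (tn Θ a (c⁻¹ • ζ' (ct Θ A b (g • v))) +
          tn Θ a (δ (ct Θ A b₁ v))) := by
      rw [hE, e1, hδ, htv', smul_add', map_add, map_add, smul_add, tn_add_right]
    have e3 : ct Θ A b₁ (g⁻¹ • tn Θ b (c⁻¹ • ζ (ct Θ A a v))) = η (ct Θ A a v) := by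
      rw [hη, tn_smul_right, smul_smul']
      exact LinearMap.map_smul _ _ _
    have e4 : ct Θ A a ((g⁻¹ * e * g) • t • v) = ct Θ A a v := by
      rw [e2]
      simp only [map_add, hca, ct_tn, h.alt, hb₁a, zero_smul, add_zero]
    have e5 : ct Θ A b₁ ((g⁻¹ * e * g) • t • v) = ct Θ A b₁ v + η (ct Θ A a v) := by
      rw [e2]
      simp only [map_add, e3, ct_tn, h.alt, hab₁, zero_smul, add_zero]
    have e6 : t • (g⁻¹ * e * g) • v = v + g⁻¹ • tn Θ b (c⁻¹ • ζ (ct Θ A a v)) +
        tn Θ a (c⁻¹ • ζ' (ct Θ A b (g • v))) + tn Θ b₁ (ct Θ A b₁ v + η (ct Θ A a v)) := by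
      rw [htv', hE]
      simp only [map_add, e3, ct_tn, hab₁, zero_smul, add_zero]
    rw [mul_smul (t * (g⁻¹ * e * g)), inv_smul_smul, mul_smul t, mul_smul (g⁻¹ * e * g) t, e6, e4, e5,
      e2]
    simp only [LinearMap.neg_apply, LinearMap.comp_apply, map_add, tn_add_right, tn_neg_right]
    abel
  obtain ⟨l, hl⟩ := scalar_of_InR h2 h hdim hs0 hs hH hscal ha hab₁ hb₁ (δ := -δ) (δ' := η)
    (fun x y => by
      have := hadj2 x y
      rw [LinearMap.neg_apply, map_neg, ← this, map_neg, LinearMap.neg_apply, neg_neg]) hR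
  refine ⟨-l, fun x => ?_⟩
  have h7 := congrArg (fun L : W →ₗ[F] W => ζ (L x)) hl
  simp only [LinearMap.neg_apply, LinearMap.smul_apply, LinearMap.id_apply, map_neg, map_smul, hδ,
    hc1, smul_smul, inv_mul_cancel₀ hc0, one_smul] at h7
  rw [neg_smul, ← h7, neg_neg]

/-- Steps B and C: the images `g (b ⊗ W)`, `b ∈ a^⊥`. -/
theorem image_perp (h2 : (2 : F) ≠ 0) (h : TS A B Θ) [FiniteDimensional F W] [Nontrivial W]
    (hdim : 3 ≤ Module.finrank F W) {s₀ : W} (hs0 : s₀ ≠ 0) (hs : B s₀ s₀ = 0)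
    (hH : ∀ g, InH Θ g → g ∈ M)
    (hscal : ∀ (x : U) (S : W →ₗ[F] W), x ≠ 0 → InAt Θ A M x S → ∃ c : F, S = c • LinearMap.id)
    {a : U} (ha : a ≠ 0) {g : G} (hg : g ∈ M) {ζ : W →ₗ[F] W}
    (hgζ : ∀ w, g • tn Θ a w = tn Θ a (ζ w)) {b : U} (hab : A a b = 0) :
    ∃ b' : U, ∀ x, g • tn Θ b x = tn Θ b' (ζ x) := by
  by_cases hb : ∃ c : F, b = c • a
  · obtain ⟨c, rfl⟩ := hb
    exact ⟨c • a, fun x => by rw [tn_smul_left, smul_smul', hgζ, tn_smul_left]⟩
  push Not at hb
  obtain ⟨c, ζ', hc0, hadj, hc1, hc2, hginv, hctg⟩ := exists_simil h hH hscal ha hg hgζ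
  have hba : A b a = 0 := by rw [h.swap, hab, neg_zero]
  have hca : ∀ x, ct Θ A a (g • tn Θ b x) = 0 := fun x => by
    rw [hctg, ct_tn, hba, zero_smul, map_zero, smul_zero]
  have hA : ∀ u, A a u = 0 → ∃ l : F, ∀ x, ct Θ A u (g • tn Θ b x) = l • ζ x := fun u hu =>
    ct_image h2 h hdim hs0 hs hH hscal ha hg hgζ hu hab hb
  -- the vector `b'`
  obtain ⟨x₀, hx₀⟩ : ∃ x, ζ x ≠ 0 := by
    obtain ⟨w, hw⟩ := exists_ne (0 : W)
    refine ⟨w, fun h0 => hw ?_⟩
    have h3 := hc2 w
    rw [h0, map_zero] at h3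
    exact (smul_eq_zero.1 h3.symm).resolve_left hc0
  obtain ⟨w₀, hw₀⟩ := exists_partner h.symB hx₀
  set b' : U := rt Θ B w₀ (g • tn Θ b x₀) with hb'
  have hb'a : A b' a = 0 := by rw [hb', rt_ct, hca, map_zero, LinearMap.zero_apply]
  have hB : ∀ u, A a u = 0 → ∀ x, ct Θ A u (g • tn Θ b x) = ct Θ A u (tn Θ b' (ζ x)) := by
    intro u hu x
    obtain ⟨l, hl⟩ := hA u hu
    have h3 : A b' u = l := by
      rw [hb', rt_ct, hl, map_smul, LinearMap.smul_apply, h.symB.symm, hw₀, smul_eq_mul, mul_one]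
    rw [hl, ct_tn, h3]
  -- the remaining component
  obtain ⟨p, hp⟩ : ∃ p, A p a = 1 := by
    obtain ⟨y, hy⟩ : ∃ y, A a y ≠ 0 := by
      by_contra hc
      push Not at hc
      exact ha (h.ndA a hc)
    refine ⟨(-(A a y)⁻¹) • y, ?_⟩
    rw [map_smul, LinearMap.smul_apply, smul_eq_mul, h.swap y a]
    field_simp
  have hap : A a p = -1 := by rw [h.swap, hp]
  obtain ⟨ω, hω⟩ : ∃ ω : W →ₗ[F] W, ∀ x, ω x = -ct Θ A p (g • tn Θ b x) + A b' p • ζ x :=
    ⟨-(ct Θ A p ∘ₗ gL g ∘ₗ tnL Θ b) + A b' p • ζ, fun x => rfl⟩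
  have hgb : ∀ x, g • tn Θ b x = tn Θ b' (ζ x) + tn Θ a (ω x) := by
    intro x
    apply h.extV
    intro u
    have h3 : A a (u - A u a • p - (0 : F) • p) = A a u + A u a := by
      rw [map_sub, map_sub, map_smul, map_smul, hap, smul_eq_mul, smul_eq_mul]
      ring
    have h4 : A a (u + A a u • p) = 0 := by
      rw [map_add, map_smul, hap, smul_eq_mul]
      ring
    have h5 := hB _ h4 x
    rw [ct_add, ct_smul, ct_add, ct_smul] at h5
    rw [map_add]
    have h6 : ct Θ A u (tn Θ a (ω x)) = A a u • ω x := ct_tn _ _ _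
    have h7 : ct Θ A p (tn Θ b' (ζ x)) = A b' p • ζ x := ct_tn _ _ _
    rw [h6, hω]
    rw [h7] at h5
    rw [smul_add, smul_neg]
    have h8 : ct Θ A u (g • tn Θ b x) = ct Θ A u (tn Θ b' (ζ x)) + A a u • A b' p • ζ x -
        A a u • ct Θ A p (g • tn Θ b x) := by
      rw [← h5]; abel
    rw [h8]
    abel
  obtain ⟨ω', hω'⟩ := exists_adj h.symB ω
  -- the conjugate of `t_b`
  obtain ⟨t, ht, htv⟩ := h.exists_tU b 1
  have hct : ∀ v, ct Θ A b (g⁻¹ • v) = ζ' (ct Θ A b' v) + ω' (ct Θ A a v) := by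
    intro v
    apply h.extW
    intro x
    rw [← h.form_ct, ← form_smul g, smul_inv_smul, hgb, sympForm_add_right, h.form_ct, h.form_ct,
      map_add, LinearMap.add_apply, hadj, hω']
  have hconj : ∀ v, (g * t * g⁻¹) • v = v + tn Θ b' (ζ (ζ' (ct Θ A b' v) + ω' (ct Θ A a v))) +
      tn Θ a (ω (ζ' (ct Θ A b' v) + ω' (ct Θ A a v))) := by
    intro v
    rw [mul_smul, mul_smul, htv, smul_add', smul_inv_smul, one_smul, hct, hgb]
    abel
  have hab' : A a b' = 0 := by rw [h.swap, hb'a, neg_zero]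
  have hb'c : ∀ k : F, b' ≠ k • a := by
    intro k hk
    -- then `g (b ⊗ x) = a ⊗ _ = g (a ⊗ _)`
    have h3 : g • tn Θ b x₀ = g • tn Θ a (c⁻¹ • ζ' (k • ζ x₀ + ω x₀)) := by
      rw [hgb, hk, tn_smul_left, ← tn_smul_right, ← tn_add_right, hgζ, map_smul, hc1, smul_smul,
        inv_mul_cancel₀ hc0, one_smul]
    have h4 := smul_left_cancel g h3
    obtain ⟨z, hza, hzb⟩ : ∃ z, A z a = 0 ∧ A z b ≠ 0 := by
      by_contra hc
      push Not at hc
      obtain ⟨c, hc'⟩ := h.mem_line ha hc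
      exact hb c hc'
    have h5 := congrArg (ct Θ A z) h4
    rw [ct_tn, ct_tn, h.swap a z, hza, neg_zero, zero_smul] at h5
    have h6 := (smul_eq_zero.1 h5).resolve_left (by rw [h.swap]; exact neg_ne_zero.2 hzb)
    rw [h6, map_zero] at hx₀
    exact hx₀ rfl
  obtain ⟨t', ht', htv'⟩ := h.exists_tU b' (-c)
  have hR : InR Θ A M a b' (ω ∘ₗ ζ') (ζ ∘ₗ ω') (ω ∘ₗ ω') := by
    refine ⟨g * t * g⁻¹ * t', M.mul_mem (M.mul_mem (M.mul_mem hg (hH t ht)) (M.inv_mem hg))
      (hH t' ht'), fun v => ?_⟩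
    rw [mul_smul, hconj, htv']
    simp only [map_add, map_smul, ct_tn, h.alt, hb'a, zero_smul, smul_zero, add_zero, tn_add_right,
      hc1, LinearMap.comp_apply, tn_smul_right]
    module
  obtain ⟨l, hl⟩ := scalar_of_InR h2 h hdim hs0 hs hH hscal ha hab' hb'c
    (δ := ω ∘ₗ ζ') (δ' := ζ ∘ₗ ω') (fun x y => by
      rw [LinearMap.comp_apply, LinearMap.comp_apply, h.symB.symm, ← hadj, h.symB.symm, hω']) hR
  have hω2 : ∀ x, ω x = (c⁻¹ * l) • ζ x := by
    intro x
    have h3 := congrArg (fun L : W →ₗ[F] W => L (ζ x)) hl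
    simp only [LinearMap.comp_apply, LinearMap.smul_apply, LinearMap.id_apply, hc2, map_smul] at h3
    rw [mul_smul, ← h3, smul_smul, inv_mul_cancel₀ hc0, one_smul]
  refine ⟨b' + (c⁻¹ * l) • a, fun x => ?_⟩
  rw [hgb, hω2, tn_add_left, tn_smul_left, tn_smul_right]

/-- **The stabiliser of `a ⊗ W` in `M` respects the tensor structure.** -/
theorem stab_inH (h2 : (2 : F) ≠ 0) (h : TS A B Θ) [FiniteDimensional F W] [Nontrivial W]
    [FiniteDimensional F U] (hU : 3 ≤ Module.finrank F U)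
    (hdim : 3 ≤ Module.finrank F W) {s₀ : W} (hs0 : s₀ ≠ 0) (hs : B s₀ s₀ = 0)
    (hH : ∀ g, InH Θ g → g ∈ M)
    (hscal : ∀ (x : U) (S : W →ₗ[F] W), x ≠ 0 → InAt Θ A M x S → ∃ c : F, S = c • LinearMap.id)
    {a : U} (ha : a ≠ 0) {g : G} (hg : g ∈ M) {ζ : W →ₗ[F] W}
    (hgζ : ∀ w, g • tn Θ a w = tn Θ a (ζ w)) :
    ∃ α : U →ₗ[F] U, ∀ u w, g • tn Θ u w = tn Θ (α u) (ζ w) := by
  obtain ⟨c, ζ', hc0, hadj, hc1, hc2, hginv, hctg⟩ := exists_simil h hH hscal ha hg hgζ
  have hinj : ∀ w, ζ w = 0 → w = 0 := by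
    intro w hw
    have h3 := hc2 w
    rw [hw, map_zero] at h3
    exact (smul_eq_zero.1 h3.symm).resolve_left hc0
  have key : ∀ u, ∃ u' : U, ∀ x, g • tn Θ u x = tn Θ u' (ζ x) := by
    intro u
    by_cases hau : A a u = 0
    · exact image_perp h2 h hdim hs0 hs hH hscal ha hg hgζ hau
    -- a vector orthogonal to `a` and `u`
    obtain ⟨b, hb0, hab, hub⟩ : ∃ b : U, b ≠ 0 ∧ A a b = 0 ∧ A u b = 0 := by
      let L : U →ₗ[F] F × F := (A a).prod (A u)
      have h3 : 0 < Module.finrank F (LinearMap.ker L) := by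
        have h4 := L.finrank_range_add_finrank_ker
        have h5 : Module.finrank F (LinearMap.range L) ≤ 2 := by
          refine (Submodule.finrank_le _).trans ?_
          rw [Module.finrank_prod, Module.finrank_self]
        omega
      obtain ⟨⟨b, hb⟩, hb0⟩ := (Module.finrank_pos_iff_exists_ne_zero).1 h3
      have hb' : (A a b, A u b) = (0, 0) := hb
      refine ⟨b, fun h0 => hb0 (Subtype.ext h0), (Prod.ext_iff.1 hb').1, (Prod.ext_iff.1 hb').2⟩
    obtain ⟨b', hb'⟩ := image_perp h2 h hdim hs0 hs hH hscal ha hg hgζ hab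
    have hb'0 : b' ≠ 0 := by
      rintro rfl
      obtain ⟨w, hw⟩ := exists_ne (0 : W)
      have h3 := hb' w
      rw [tn_zero_left, smul_eq_iff_eq_inv_smul, smul_zero] at h3
      exact hw (tn_injective h hb0 (h3.trans (tn_zero_right b).symm))
    obtain ⟨σ, hσ, hσb⟩ := h.exists_isom hb'0 hb0
    obtain ⟨k, hk, hku⟩ := h.exists_U hσ
    have hσs : Function.Surjective σ := by
      apply LinearMap.surjective_of_injective
      rw [injective_iff_map_eq_zero]
      intro x hx
      apply h.ndA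
      intro y
      rw [← hσ, hx, map_zero, LinearMap.zero_apply]
    have hkg : ∀ w, (k * g) • tn Θ b w = tn Θ b (ζ w) := fun w => by
      rw [mul_smul, hb', hku, hσb]
    have hbu : A b u = 0 := by rw [h.swap, hub, neg_zero]
    obtain ⟨u', hu'⟩ := image_perp h2 h hdim hs0 hs hH hscal hb0 (M.mul_mem (hH k hk) hg) hkg hbu
    obtain ⟨u'', rfl⟩ := hσs u'
    refine ⟨u'', fun x => ?_⟩
    have h3 := hu' x
    rw [mul_smul, ← hku] at h3
    exact smul_left_cancel k h3
  obtain ⟨x₀, hx₀⟩ := exists_ne (0 : W)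
  have hx₀' : ζ x₀ ≠ 0 := fun h0 => hx₀ (hinj x₀ h0)
  obtain ⟨w₀, hw₀⟩ := exists_partner h.symB hx₀'
  refine ⟨rt Θ B w₀ ∘ₗ gL g ∘ₗ Θ.toLinearMap ∘ₗ (TensorProduct.mk F U W).flip x₀, fun u w => ?_⟩
  obtain ⟨u', hu'⟩ := key u
  have h3 : (rt Θ B w₀ ∘ₗ gL g ∘ₗ Θ.toLinearMap ∘ₗ (TensorProduct.mk F U W).flip x₀) u =
      rt Θ B w₀ (g • tn Θ u x₀) := rfl
  rw [h3, hu', hu', rt_tn, h.symB.symm, hw₀, one_smul]

end Cfsg.Agent.H879.TenS
end

-- part: H879/TenTI
section
/-!
# Overgroups of `Sp(U) ⊗ O(W)`: the elements `t_a ⊗ 1` are TI (helper879)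
-/

set_option autoImplicit false
set_option linter.unusedSimpArgs false
open Cfsg
open scoped Matrix TensorProduct
open Cfsg.Agent.ClassicalGeometry.SympBasic Cfsg.Agent.ClassicalGeometry.SympSiegel

namespace Cfsg.Agent.H879.TenS

open Cfsg.Agent.H875 Cfsg.Agent.H875.Ten

variable {F : Type*} [Field F] {m : ℕ}

local notation "V" => (Fin m ⊕ Fin m → F)
local notation "G" => Matrix.symplecticGroup (Fin m) F
local notation "f" => sympForm m F

variable {U W : Type*} [AddCommGroup U] [Module F U] [AddCommGroup W] [Module F W]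
variable {A : LinearMap.BilinForm F U} {B : LinearMap.BilinForm F W}
  {Θ : U ⊗[F] W ≃ₗ[F] (Fin m ⊕ Fin m → F)} {M : Subgroup (Matrix.symplecticGroup (Fin m) F)}

theorem tn_eq_zero (h : TS A B Θ) {u : U} {w : W} (hw : tn Θ u w = 0) : u = 0 ∨ w = 0 := by
  by_cases hu : u = 0
  · exact Or.inl hu
  · right
    exact tn_injective h hu (hw.trans (tn_zero_right u).symm)

theorem InH_inv (h : TS A B Θ) [FiniteDimensional F U] [FiniteDimensional F W] [Nontrivial U]
    [Nontrivial W] {g : G} (hg : InH Θ g) : InH Θ g⁻¹ := by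
  obtain ⟨α, β, hαβ⟩ := hg
  have hα : Function.Injective α := by
    rw [injective_iff_map_eq_zero]
    intro u hu
    obtain ⟨w, hw⟩ := exists_ne (0 : W)
    have h3 := hαβ u w
    rw [hu, tn_zero_left, smul_eq_iff_eq_inv_smul, smul_zero] at h3
    exact (tn_eq_zero h h3).resolve_right hw
  have hβ : Function.Injective β := by
    rw [injective_iff_map_eq_zero]
    intro w hw
    obtain ⟨u, hu⟩ := exists_ne (0 : U)
    have h3 := hαβ u w
    rw [hw, tn_zero_right, smul_eq_iff_eq_inv_smul, smul_zero] at h3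
    exact (tn_eq_zero h h3).resolve_left hu
  let α' := LinearEquiv.ofInjectiveEndo α hα
  let β' := LinearEquiv.ofInjectiveEndo β hβ
  have e1 : ∀ u, α (α'.symm u) = u := fun u => α'.apply_symm_apply u
  have e2 : ∀ w, β (β'.symm w) = w := fun w => β'.apply_symm_apply w
  refine ⟨α'.symm.toLinearMap, β'.symm.toLinearMap, fun u w => ?_⟩
  rw [inv_smul_eq_iff, hαβ]
  rw [LinearEquiv.coe_coe, LinearEquiv.coe_coe, e1, e2]

/-- One of the two components of a quadratic element `α ⊗ β` is scalar. -/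
theorem scalar_or (h2 : (2 : F) ≠ 0) (h : TS A B Θ) [FiniteDimensional F W] {x : G}
    {α : U →ₗ[F] U} {β : W →ₗ[F] W} (hβ : Function.Injective β)
    (hx : ∀ u w, x • tn Θ u w = tn Θ (α u) (β w))
    (hq : ∀ v : V, x • x • v - (2 : F) • x • v + v = 0) :
    (∃ c : F, ∀ u, α u = c • u) ∨ ∃ c : F, ∀ w, β w = c • w := by
  by_cases hα : ∀ u, ∃ c : F, α u = c • u
  · left
    by_cases hU : ∃ u₀ : U, u₀ ≠ 0
    · obtain ⟨u₀, hu₀⟩ := hU
      obtain ⟨c, hc⟩ := hα u₀
      refine ⟨c, fun u => ?_⟩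
      obtain ⟨d, hd⟩ := hα u
      obtain ⟨e, he⟩ := hα (u₀ + u)
      by_cases hlin : ∃ k : F, u = k • u₀
      · obtain ⟨k, rfl⟩ := hlin
        rw [map_smul, hc, smul_comm]
      · push Not at hlin
        rw [map_add, hc, hd] at he
        have h3 : (c - e) • u₀ + (d - e) • u = 0 := by
          rw [sub_smul, sub_smul]
          have : c • u₀ + d • u = e • u₀ + e • u := by rw [he, smul_add]
          rw [← sub_eq_zero] at this
          rw [← this]
          abel
        by_cases hde : d = e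
        · subst hde
          rw [sub_self, zero_smul, add_zero] at h3
          have h4 := (smul_eq_zero.1 h3).resolve_right hu₀
          rw [hd, sub_eq_zero.1 h4]
        · exfalso
          apply hlin (-((d - e)⁻¹ * (c - e)))
          have h5 : (d - e)⁻¹ • ((c - e) • u₀ + (d - e) • u) = 0 := by rw [h3, smul_zero]
          rw [smul_add, smul_smul, smul_smul, inv_mul_cancel₀ (sub_ne_zero.2 hde), one_smul] at h5
          rw [neg_smul]
          exact eq_neg_of_add_eq_zero_right h5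
    · push Not at hU
      exact ⟨0, fun u => by rw [hU u, map_zero, smul_zero]⟩
  · right
    push Not at hα
    obtain ⟨u, hu⟩ := hα
    have hu0 : u ≠ 0 := by
      rintro rfl
      exact hu 0 (by rw [map_zero, smul_zero])
    obtain ⟨z, hzu, hzα⟩ : ∃ z, A z u = 0 ∧ A z (α u) ≠ 0 := by
      by_contra hc
      push Not at hc
      obtain ⟨c, hc'⟩ := h.mem_line hu0 hc
      exact hu c hc'
    have huz : A u z = 0 := by rw [h.swap, hzu, neg_zero]
    have hαz : A (α u) z ≠ 0 := by rw [h.swap]; exact neg_ne_zero.2 hzα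
    have key : ∀ w, A (α (α u)) z • β (β w) = (2 * A (α u) z) • β w := by
      intro w
      have h3 := congrArg (ct Θ A z) (hq (tn Θ u w))
      rw [hx, hx, map_add, map_sub, map_smul, ct_tn, ct_tn, ct_tn, huz, zero_smul, add_zero, map_zero,
        sub_eq_zero, smul_smul] at h3
      exact h3
    have hsurj : Function.Surjective β := LinearMap.surjective_of_injective hβ
    have h2α : 2 * A (α u) z ≠ 0 := mul_ne_zero h2 hαz
    by_cases hk : A (α (α u)) z = 0
    · refine ⟨0, fun w => ?_⟩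
      have h3 := key w
      rw [hk, zero_smul] at h3
      rw [zero_smul]
      exact (smul_eq_zero.1 h3.symm).resolve_left h2α
    · refine ⟨(A (α (α u)) z)⁻¹ * (2 * A (α u) z), fun w => ?_⟩
      obtain ⟨w', rfl⟩ := hsurj w
      rw [mul_smul, ← key, smul_smul, inv_mul_cancel₀ hk, one_smul]

/-- Reflections of `W`. -/
theorem exists_refl (h : TS A B Θ) {w₁ : W} (hw₁ : B w₁ w₁ ≠ 0) :
    ∃ s : G, InH Θ s ∧ ∀ v, s • v = v - (2 / B w₁ w₁) • tn Θ (rt Θ B w₁ v) w₁ := by
  obtain ⟨s, hs, hsu⟩ := h.exists_W (y := LinearMap.id - (2 / B w₁ w₁) • rk B w₁ w₁) (by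
    intro w w'
    simp only [LinearMap.sub_apply, LinearMap.id_apply, LinearMap.smul_apply, rk_apply, map_sub,
      map_smul, smul_eq_mul, h.symB.symm w₁ w']
    field_simp
    ring)
  refine ⟨s, hs, fun v => ?_⟩
  refine tn_induction (Θ := Θ)
    (P := fun v => s • v = v - (2 / B w₁ w₁) • tn Θ (rt Θ B w₁ v) w₁) ?_ ?_ ?_ v
  · rw [smul_zero, map_zero, tn_zero_left, smul_zero, sub_zero]
  · intro u w
    rw [hsu, rt_tn]
    simp only [LinearMap.sub_apply, LinearMap.id_apply, LinearMap.smul_apply, rk_apply,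
      tn_sub_right, tn_smul_right, tn_smul_left]
  · intro x y hx hy
    rw [smul_add', hx, hy, map_add, tn_add_left, smul_add]
    abel

/-- Polarisation. -/
theorem eq_zero_of_sing (h2 : (2 : F) ≠ 0) (hB : SymB B) {P : Submodule F W}
    (hP : ∀ w ∈ P, B w w = 0) {w w' : W} (hw : w ∈ P) (hw' : w' ∈ P) : B w w' = 0 := by
  have h3 := hP _ (P.add_mem hw hw')
  rw [map_add, map_add, LinearMap.add_apply, LinearMap.add_apply, hP w hw, hP w' hw',
    hB.symm w' w] at h3
  have h4 : 2 * B w w' = 0 := by linear_combination h3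
  exact (mul_eq_zero.1 h4).resolve_left h2

/-- **TI property of `t_a ⊗ 1`.** -/
theorem ti_tU (h2 : (2 : F) ≠ 0) (h : TS A B Θ) [FiniteDimensional F W] [Nontrivial W]
    [FiniteDimensional F U] (hU : 3 ≤ Module.finrank F U)
    (hdim : 3 ≤ Module.finrank F W) {s₀ : W} (hs0 : s₀ ≠ 0) (hs : B s₀ s₀ = 0)
    (hH : ∀ g, InH Θ g → g ∈ M)
    (hscal : ∀ (x : U) (S : W →ₗ[F] W), x ≠ 0 → InAt Θ A M x S → ∃ c : F, S = c • LinearMap.id)
    {a : U} (ha : a ≠ 0) {t : G} (ht : ∀ v, t • v = v + tn Θ a (ct Θ A a v)) {g : G} (hg : g ∈ M)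
    (hgt : InH Θ (g * t * g⁻¹)) : InH Θ g := by
  have : Nontrivial U := ⟨a, 0, ha⟩
  obtain ⟨p, hp⟩ : ∃ p, A p a = 1 := by
    obtain ⟨y, hy⟩ : ∃ y, A a y ≠ 0 := by
      by_contra hc
      push Not at hc
      exact ha (h.ndA a hc)
    refine ⟨(-(A a y)⁻¹) • y, ?_⟩
    rw [map_smul, LinearMap.smul_apply, smul_eq_mul, h.swap y a]
    field_simp
  set x := g * t * g⁻¹ with hxdef
  have hxv : ∀ v, x • v = v + g • tn Θ a (ct Θ A a (g⁻¹ • v)) := by
    intro v
    rw [hxdef, mul_smul, mul_smul, ht, smul_add', smul_inv_smul]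
  obtain ⟨α, β, hαβ⟩ := id hgt
  have hα : Function.Injective α := by
    rw [injective_iff_map_eq_zero]
    intro u hu
    obtain ⟨w, hw⟩ := exists_ne (0 : W)
    have h3 := hαβ u w
    rw [hu, tn_zero_left, smul_eq_iff_eq_inv_smul, smul_zero] at h3
    exact (tn_eq_zero h h3).resolve_right hw
  have hβ : Function.Injective β := by
    rw [injective_iff_map_eq_zero]
    intro w hw
    obtain ⟨u, hu⟩ := exists_ne (0 : U)
    have h3 := hαβ u w
    rw [hw, tn_zero_right, smul_eq_iff_eq_inv_smul, smul_zero] at h3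
    exact (tn_eq_zero h h3).resolve_left hu
  have hq : ∀ v : V, x • x • v - (2 : F) • x • v + v = 0 := by
    intro v
    have h3 : ct Θ A a (g⁻¹ • x • v) = ct Θ A a (g⁻¹ • v) := by
      rw [hxv, smul_add', inv_smul_smul, map_add, ct_tn, h.alt, zero_smul, add_zero]
    rw [hxv (x • v), h3, hxv]
    generalize g • tn Θ a (ct Θ A a (g⁻¹ • v)) = z
    module
  -- `x ≠ 1`
  have hx1 : ∃ (u : U) (w : W), x • tn Θ u w ≠ tn Θ u w := by
    by_contra hcon
    push Not at hcon
    have h3 : ∀ v : V, x • v = v := fun v => by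
      refine tn_induction (Θ := Θ) (P := fun v => x • v = v) (smul_zero _) hcon ?_ v
      intro y z hy hz
      rw [smul_add', hy, hz]
    obtain ⟨w, hw⟩ := exists_ne (0 : W)
    have h4 := h3 (g • tn Θ p w)
    rw [hxv, inv_smul_smul, ct_tn, hp, one_smul] at h4
    have h5 : g • tn Θ a w = 0 := by
      have := congrArg (fun z => z - g • tn Θ p w) h4
      simpa using this
    rw [smul_eq_iff_eq_inv_smul, smul_zero] at h5
    rcases tn_eq_zero h h5 with h6 | h6
    · exact ha h6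
    · exact hw h6
  rcases scalar_or h2 h hβ hαβ hq with ⟨c, hc⟩ | ⟨c, hc⟩
  · -- `x = 1 ⊗ c β`
    exfalso
    have hx2 : ∀ u w, x • tn Θ u w = tn Θ u (c • β w) := fun u w => by
      rw [hαβ, hc, tn_smul_left, tn_smul_right]
    let P : Submodule F W := LinearMap.range (c • β - LinearMap.id)
    have hP : ∀ y ∈ P, ∀ u, ∃ w, tn Θ u y = g • tn Θ a w := by
      rintro y ⟨w, rfl⟩ u
      refine ⟨ct Θ A a (g⁻¹ • tn Θ u w), ?_⟩
      have h3 := hxv (tn Θ u w)
      rw [hx2] at h3
      rw [LinearMap.sub_apply, LinearMap.smul_apply, LinearMap.id_apply, tn_sub_right, h3]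
      abel
    have hP2 : ∀ z : U ⊗[F] P, ∃ w, g⁻¹ • Θ (TensorProduct.map LinearMap.id P.subtype z) =
        tn Θ a w := by
      intro z
      induction z using TensorProduct.induction_on with
      | zero => exact ⟨0, by rw [map_zero, map_zero, smul_zero, tn_zero_right]⟩
      | tmul u y =>
        obtain ⟨w, hw⟩ := hP y y.2 u
        refine ⟨w, ?_⟩
        rw [TensorProduct.map_tmul, LinearMap.id_apply, inv_smul_eq_iff]
        exact hw
      | add z z' hz hz' =>
        obtain ⟨w, hw⟩ := hz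
        obtain ⟨w', hw'⟩ := hz'
        exact ⟨w + w', by rw [map_add, map_add, smul_add', hw, hw', tn_add_right]⟩
    -- `3 dim P ≤ dim W`
    have hdimP : Module.finrank F U * Module.finrank F P ≤ Module.finrank F W := by
      let Φ : U ⊗[F] P →ₗ[F] W := ct Θ A p ∘ₗ gL g⁻¹ ∘ₗ Θ.toLinearMap ∘ₗ
        TensorProduct.map LinearMap.id P.subtype
      have hΦ : Function.Injective Φ := by
        rw [injective_iff_map_eq_zero]
        intro z hz
        obtain ⟨w, hw⟩ := hP2 z
        have h3 : Φ z = ct Θ A p (g⁻¹ • Θ (TensorProduct.map LinearMap.id P.subtype z)) := rfl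
        rw [h3, hw, ct_tn] at hz
        have h4 : A a p ≠ 0 := by
          rw [h.swap, hp]; exact neg_ne_zero.2 one_ne_zero
        have h5 := (smul_eq_zero.1 hz).resolve_left h4
        rw [h5, tn_zero_right, inv_smul_eq_iff, smul_zero] at hw
        have h6 : Function.Injective (LinearMap.lTensor U P.subtype) :=
          Module.Flat.lTensor_preserves_injective_linearMap _ P.subtype_injective
        apply h6
        rw [map_zero]
        apply Θ.injective
        rw [map_zero]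
        exact hw
      have h7 := LinearMap.finrank_le_finrank_of_injective hΦ
      rwa [Module.finrank_tensorProduct] at h7
    -- `P ≠ 0`
    obtain ⟨y₀, hy₀P, hy₀⟩ : ∃ y ∈ P, y ≠ 0 := by
      obtain ⟨u, w, huw⟩ := hx1
      refine ⟨(c • β - LinearMap.id : W →ₗ[F] W) w, ⟨w, rfl⟩, fun h0 => huw ?_⟩
      rw [hx2]
      rw [LinearMap.sub_apply, LinearMap.smul_apply, LinearMap.id_apply, sub_eq_zero] at h0
      rw [h0]
    have hPpos : 0 < Module.finrank F P := by
      rw [Module.finrank_pos_iff_exists_ne_zero]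
      exact ⟨⟨y₀, hy₀P⟩, fun h0 => hy₀ (congrArg Subtype.val h0)⟩
    have hnd : B.Nondegenerate := by
      refine ⟨fun x hx => h.symB.nd x hx, fun x hx => h.symB.nd x fun y => by
        rw [h.symB.symm]; exact hx y⟩
    -- a nonsingular vector of `P^⊥`
    obtain ⟨w₁, hw₁P, hw₁⟩ : ∃ w₁, (∀ y ∈ P, B w₁ y = 0) ∧ B w₁ w₁ ≠ 0 := by
      by_contra hcon
      push Not at hcon
      have h3 : ∀ w ∈ B.orthogonal P, B w w = 0 := fun w hw => hcon w fun y hy => by
        rw [h.symB.symm]; exact hw y hy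
      have h4 : B.orthogonal P ≤ B.orthogonal (B.orthogonal P) := by
        intro w hw w' hw'
        exact eq_zero_of_sing h2 h.symB h3 hw' hw
      have h5 := Submodule.finrank_mono h4
      have e1 := LinearMap.BilinForm.finrank_orthogonal hnd P
      have e2 := LinearMap.BilinForm.finrank_orthogonal hnd (B.orthogonal P)
      have h6 := Submodule.finrank_le P
      have h7 : 3 * Module.finrank F P ≤ Module.finrank F W :=
        (Nat.mul_le_mul_right _ hU).trans hdimP
      omega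
    -- the reflection fixes `g (a ⊗ W)` pointwise
    obtain ⟨s, hsH, hsv⟩ := exists_refl h hw₁
    have hsfix : ∀ w, s • g • tn Θ a w = g • tn Θ a w := by
      intro w
      -- `g (a ⊗ w) = x v - v` with `v = g (p ⊗ w)`
      have h3 : g • tn Θ a w = x • g • tn Θ p w - g • tn Θ p w := by
        rw [hxv, inv_smul_smul, ct_tn, hp, one_smul]
        abel
      have h4 : ∀ v : V, rt Θ B w₁ (x • v - v) = 0 := by
        intro v
        refine tn_induction (Θ := Θ) (P := fun v => rt Θ B w₁ (x • v - v) = 0) ?_ ?_ ?_ v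
        · rw [smul_zero, sub_zero, map_zero]
        · intro u w
          have h5 : B w₁ (c • β w - w) = 0 := hw₁P _ ⟨w, rfl⟩
          rw [hx2, ← tn_sub_right, rt_tn, h.symB.symm, h5, zero_smul]
        · intro y z hy hz
          have : x • (y + z) - (y + z) = (x • y - y) + (x • z - z) := by rw [smul_add']; abel
          rw [this, map_add, hy, hz, add_zero]
      rw [hsv, h3, h4, tn_zero_left, smul_zero, sub_zero]
    have hM' : g⁻¹ * s * g ∈ M := M.mul_mem (M.mul_mem (M.inv_mem hg) (hH s hsH)) hg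
    obtain ⟨α', hα'⟩ := stab_inH h2 h hU hdim hs0 hs hH hscal ha hM' (ζ := LinearMap.id)
      (fun w => by rw [mul_smul, mul_smul, hsfix, inv_smul_smul, LinearMap.id_apply])
    -- `α' ≠ 1`
    obtain ⟨u, hu⟩ : ∃ u, α' u - u ≠ 0 := by
      by_contra hcon
      push Not at hcon
      have h3 : ∀ v : V, s • v = v := by
        intro v
        have h4 : ∀ v : V, (g⁻¹ * s * g) • v = v := fun v => by
          refine tn_induction (Θ := Θ) (P := fun v => (g⁻¹ * s * g) • v = v) (smul_zero _)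
            (fun u w => by rw [hα', LinearMap.id_apply, sub_eq_zero.1 (hcon u)]) ?_ v
          intro y z hy hz
          rw [smul_add', hy, hz]
        have h5 := h4 (g⁻¹ • v)
        rw [mul_smul, mul_smul, smul_inv_smul] at h5
        exact smul_left_cancel _ h5
      have h4 := h3 (tn Θ a w₁)
      rw [hsv, rt_tn, tn_smul_left, smul_smul, div_mul_cancel₀ _ hw₁] at h4
      have h5 : (2 : F) • tn Θ a w₁ = 0 := by
        rw [sub_eq_self] at h4
        exact h4
      rcases tn_eq_zero h ((smul_eq_zero.1 h5).resolve_left h2) with h6 | h6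
      · exact ha h6
      · rw [h6, map_zero] at hw₁
        exact hw₁ rfl
    set u₁ := α' u - u with hu₁
    obtain ⟨μ, hμ⟩ : ∃ μ : W →ₗ[F] U, ∀ w, g • tn Θ u₁ w = tn Θ (μ w) w₁ := by
      refine ⟨-((2 / B w₁ w₁) • (rt Θ B w₁ ∘ₗ gL g ∘ₗ tnL Θ u)), fun w => ?_⟩
      have h3 : s • g • tn Θ u w = g • tn Θ (α' u) w := by
        have h4 := hα' u w
        rw [mul_smul, mul_smul, inv_smul_eq_iff] at h4
        exact h4
      have h5 : g • tn Θ u₁ w = s • g • tn Θ u w - g • tn Θ u w := by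
        rw [h3, hu₁, tn_sub_left, smul_sub]
      rw [h5, hsv]
      have h6 : (-((2 / B w₁ w₁) • (rt Θ B w₁ ∘ₗ gL g ∘ₗ tnL Θ u))) w =
        -((2 / B w₁ w₁) • rt Θ B w₁ (g • tn Θ u w)) := rfl
      rw [h6, tn_neg_left, tn_smul_left]
      abel
    have hμinj : Function.Injective μ := by
      rw [injective_iff_map_eq_zero]
      intro w hw
      have h3 := hμ w
      rw [hw, tn_zero_left, smul_eq_iff_eq_inv_smul, smul_zero] at h3
      exact (tn_eq_zero h h3).resolve_left hu
    have hle1 : Module.finrank F U ≤ Module.finrank F W := by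
      refine le_trans ?_ hdimP
      exact Nat.le_mul_of_pos_right _ hPpos
    have hμsurj : Function.Surjective μ := by
      rw [← LinearMap.injective_iff_surjective_of_finrank_eq_finrank
        (le_antisymm (LinearMap.finrank_le_finrank_of_injective hμinj) hle1)]
      exact hμinj
    apply ha
    apply h.ndA
    intro y
    obtain ⟨w, rfl⟩ := hμsurj y
    obtain ⟨w', hw'⟩ := hμsurj a
    rw [← hw']
    have h3 : f (tn Θ (μ w') w₁) (tn Θ (μ w) w₁) = 0 := by
      rw [← hμ, ← hμ, form_smul, h.form', h.alt, zero_mul]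
    rw [h.form'] at h3
    exact (mul_eq_zero.1 h3).resolve_right hw₁
  · -- `x = c α ⊗ 1`
    have hx2 : ∀ u w, x • tn Θ u w = tn Θ (c • α u) w := fun u w => by
      rw [hαβ, hc, tn_smul_left, tn_smul_right]
    obtain ⟨u, w₀, hu⟩ := hx1
    set u₁ := c • α u - u with hu₁
    have hu₁0 : u₁ ≠ 0 := by
      intro h0
      apply hu
      rw [hx2]
      rw [hu₁, sub_eq_zero] at h0
      rw [h0]
    let ξ : W →ₗ[F] W := ct Θ A a ∘ₗ gL g⁻¹ ∘ₗ tnL Θ u
    have hξ : ∀ w, g⁻¹ • tn Θ u₁ w = tn Θ a (ξ w) := by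
      intro w
      rw [inv_smul_eq_iff]
      have h3 := hxv (tn Θ u w)
      rw [hx2] at h3
      rw [hu₁, tn_sub_left, h3]
      have h4 : ξ w = ct Θ A a (g⁻¹ • tn Θ u w) := rfl
      rw [h4]
      abel
    obtain ⟨σ, hσ, hσa⟩ := h.exists_isom ha hu₁0
    obtain ⟨k, hk, hku⟩ := h.exists_U hσ
    obtain ⟨α', hα'⟩ := stab_inH h2 h hU hdim hs0 hs hH hscal hu₁0
      (M.mul_mem (hH k hk) (M.inv_mem hg)) (ζ := ξ) (fun w => by rw [mul_smul, hξ, hku, hσa])
    have h3 : InH Θ (k⁻¹ * (k * g⁻¹)) := (InH_inv h hk).mul ⟨α', ξ, hα'⟩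
    rw [inv_mul_cancel_left] at h3
    have h4 := InH_inv h h3
    rwa [inv_inv] at h4

end Cfsg.Agent.H879.TenS
end

-- part: H879/TenMain
section
/-!
# Overgroups of `Sp(U) ⊗ O(W)`, `dim U ≥ 4`, odd characteristic (helper879)
-/

set_option autoImplicit false
set_option linter.unusedSimpArgs false
open Cfsg
open scoped Matrix TensorProduct
open Cfsg.Agent.ClassicalGeometry.SympBasic Cfsg.Agent.ClassicalGeometry.SympSiegel

namespace Cfsg.Agent.H879.TenS

open Cfsg.Agent.H875 Cfsg.Agent.H875.Ten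

variable {F : Type*} [Field F] {m : ℕ}

local notation "V" => (Fin m ⊕ Fin m → F)
local notation "G" => Matrix.symplecticGroup (Fin m) F
local notation "f" => sympForm m F

variable {U W : Type*} [AddCommGroup U] [Module F U] [AddCommGroup W] [Module F W]
variable {A : LinearMap.BilinForm F U} {B : LinearMap.BilinForm F W}
  {Θ : U ⊗[F] W ≃ₗ[F] (Fin m ⊕ Fin m → F)} {M : Subgroup (Matrix.symplecticGroup (Fin m) F)}

/-- The subgroup of the elements respecting the tensor structure. -/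
def InHsub (h : TS A B Θ) [FiniteDimensional F U] [FiniteDimensional F W] [Nontrivial U]
    [Nontrivial W] : Subgroup G where
  carrier := {g | InH Θ g}
  mul_mem' := fun ha hb => InH.mul ha hb
  one_mem' := ⟨LinearMap.id, LinearMap.id, fun u w => by rw [one_smul]; rfl⟩
  inv_mem' := fun ha => InH_inv h ha

theorem mem_InHsub (h : TS A B Θ) [FiniteDimensional F U] [FiniteDimensional F W] [Nontrivial U]
    [Nontrivial W] (g : G) : g ∈ InHsub h ↔ InH Θ g := Iff.rfl

/-- If a `p`-subgroup contains `t_a` and `g t_b g⁻¹` then `g ∈ H`. -/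
theorem inH_of_pgroup [Finite F] {p : ℕ} [hp : Fact p.Prime] [CharP F p] (h2 : (2 : F) ≠ 0)
    (h : TS A B Θ) [FiniteDimensional F W] [Nontrivial W]
    [FiniteDimensional F U] (hU : 3 ≤ Module.finrank F U)
    (hdim : 3 ≤ Module.finrank F W) {s₀ : W} (hs0 : s₀ ≠ 0) (hs : B s₀ s₀ = 0)
    (hH : ∀ g, InH Θ g → g ∈ M)
    (hscal : ∀ (x : U) (S : W →ₗ[F] W), x ≠ 0 → InAt Θ A M x S → ∃ c : F, S = c • LinearMap.id)
    {a b : U} (ha : a ≠ 0) (hb : b ≠ 0) {t s : G} (ht : ∀ v, t • v = v + tn Θ a (ct Θ A a v))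
    (hs' : ∀ v, s • v = v + tn Θ b (ct Θ A b v)) {g : G} (hg : g ∈ M)
    (hpg : IsPGroup p (Subgroup.closure ({t, g * s * g⁻¹} : Set G))) : InH Θ g := by
  have : Nontrivial U := ⟨a, 0, ha⟩
  have : Finite G := inferInstance
  have htH : InH Θ t := by
    obtain ⟨t', ht', htv'⟩ := h.exists_tU a 1
    have : t = t' := by
      apply Subtype.ext
      apply Matrix.mulVec_injective
      funext v
      have h3 := ht v
      have h4 := htv' v
      rw [one_smul] at h4
      rw [← h4] at h3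
      exact h3
    rw [this]; exact ht'
  have hsH : InH Θ s := by
    obtain ⟨t', ht', htv'⟩ := h.exists_tU b 1
    have : s = t' := by
      apply Subtype.ext
      apply Matrix.mulVec_injective
      funext v
      have h3 := hs' v
      have h4 := htv' v
      rw [one_smul] at h4
      rw [← h4] at h3
      exact h3
    rw [this]; exact ht'
  set L := Subgroup.closure ({t, g * s * g⁻¹} : Set G) with hL
  have htM : t ∈ M := hH t htH
  have hsM : s ∈ M := hH s hsH
  have hLM : L ≤ M := by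
    rw [hL, Subgroup.closure_le]
    rintro x (rfl | rfl)
    · exact htM
    · exact M.mul_mem (M.mul_mem hg hsM) (M.inv_mem hg)
  -- powers of `t_a`
  have hpow : ∀ (c : U) (r : G), (∀ v, r • v = v + tn Θ c (ct Θ A c v)) → r ^ p = 1 := by
    intro c r hr
    have h3 : ∀ (n : ℕ) (v : V), (r ^ n) • v = v + (n : F) • tn Θ c (ct Θ A c v) := by
      intro n
      induction n with
      | zero => intro v; rw [pow_zero, one_smul, Nat.cast_zero, zero_smul, add_zero]
      | succ n ih =>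
        intro v
        rw [pow_succ, mul_smul, ih, hr, map_add, ct_tn, h.alt, zero_smul, add_zero, Nat.cast_succ,
          add_smul, one_smul]
        abel
    apply Subtype.ext
    apply Matrix.mulVec_injective
    funext v
    have h4 := h3 p v
    rw [CharP.cast_eq_zero, zero_smul, add_zero] at h4
    rw [Submonoid.coe_one, Matrix.one_mulVec]
    exact h4
  let H' : Subgroup M := (InHsub h).subgroupOf M
  let D : Set M := {x | ∃ c : U, c ≠ 0 ∧ ∀ v, (x : G) • v = v + tn Θ c (ct Θ A c v)}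
  have hD : ∀ x ∈ D, x ∈ H' ∧ ∃ k : ℕ, x ^ p ^ k = 1 := by
    rintro ⟨x, hxM⟩ ⟨c, hc, hx⟩
    refine ⟨?_, 1, ?_⟩
    · change InH Θ x
      obtain ⟨t', ht', htv'⟩ := h.exists_tU c 1
      have : x = t' := by
        apply Subtype.ext
        apply Matrix.mulVec_injective
        funext v
        have h3 := hx v
        have h4 := htv' v
        rw [one_smul] at h4
        rw [← h4] at h3
        exact h3
      rw [this]; exact ht'
    · apply Subtype.ext
      rw [pow_one, Subgroup.coe_pow]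
      exact hpow c x hx
  have hTI : ∀ x ∈ D, ∀ y : M, y * x * y⁻¹ ∈ H' → y ∈ H' := by
    rintro x ⟨c, hc, hx⟩ y hy
    exact ti_tU h2 h hU hdim hs0 hs hH hscal hc hx y.2 hy
  let S : Subgroup M := L.subgroupOf M
  have hS : IsPGroup p S := by
    have h3 : IsPGroup p (L.subgroupOf M) := by
      apply IsPGroup.comap_of_injective hpg _ M.subtype_injective
    exact h3
  have h5 := Cfsg.Agent.H880.pgroup_fixes (p := p) H' D hD hTI (s := ⟨s, hsM⟩) ⟨b, hb, hs'⟩ ⟨g, hg⟩ S hS
    (by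
      change g * s * g⁻¹ ∈ L
      exact Subgroup.subset_closure (by simp)) ⟨t, htM⟩ (by
      change t ∈ L
      exact Subgroup.subset_closure (by simp))
  have h6 : ((⟨t, htM⟩ * ⟨g, hg⟩ : M) : M ⧸ H') = ((⟨g, hg⟩ : M) : M ⧸ H') := h5
  rw [eq_comm, QuotientGroup.eq] at h6
  have h7 : (⟨g, hg⟩ : M)⁻¹ ∈ H' := by
    apply hTI ⟨t, htM⟩ ⟨a, ha, ht⟩
    rw [inv_inv]
    rwa [← mul_assoc] at h6
  have h8 := H'.inv_mem h7
  rw [inv_inv] at h8
  exact h8

/-- `u ⊗ w = a ⊗ w'`, `w ≠ 0`, forces `u ∈ ⟨a⟩`. -/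
theorem mem_line_of_tn (h : TS A B Θ) {a u : U} (ha : a ≠ 0) {w w' : W} (hw : w ≠ 0)
    (huw : tn Θ u w = tn Θ a w') : ∃ c : F, u = c • a := by
  apply h.mem_line ha
  intro z hz
  have h3 := congrArg (ct Θ A z) huw
  rw [ct_tn, ct_tn, h.swap a z, hz, neg_zero, zero_smul] at h3
  have h4 := (smul_eq_zero.1 h3).resolve_right hw
  rw [h.swap, h4, neg_zero]

/-- The action of an involution of `⟨t_a, s⟩` commuting with `t_a` and `s`. -/
theorem involution_action (h2 : (2 : F) ≠ 0)
    (h : TS A B Θ) [FiniteDimensional F W] [Nontrivial W]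
    [FiniteDimensional F U] (hU : 3 ≤ Module.finrank F U)
    (hdim : 3 ≤ Module.finrank F W) {s₀ : W} (hs0 : s₀ ≠ 0) (hs : B s₀ s₀ = 0)
    (hH : ∀ g, InH Θ g → g ∈ M)
    (hscal : ∀ (x : U) (S : W →ₗ[F] W), x ≠ 0 → InAt Θ A M x S → ∃ c : F, S = c • LinearMap.id)
    {a : U} (ha : a ≠ 0) {t s : G} (ht : ∀ v, t • v = v + tn Θ a (ct Θ A a v))
    (hti : ∀ v v' : V, f (s • v - v) (s • v' - v') = 0) {j : G}
    (hj : j ∈ Subgroup.closure ({t, s} : Set G)) (hj1 : j ≠ 1) (hjj : j * j = 1)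
    (hjt : j * t = t * j) (hjs : j * s = s * j) (hjM : j ∈ M) :
    ∃ α : U →ₗ[F] U, (∀ u w, j • tn Θ u w = -tn Θ (α u) w) ∧ α a = a ∧ ∃ u, u ≠ 0 ∧ α u = -u := by
  obtain ⟨p, hp⟩ : ∃ p, A p a = 1 := by
    obtain ⟨y, hy⟩ : ∃ y, A a y ≠ 0 := by
      by_contra hc
      push Not at hc
      exact ha (h.ndA a hc)
    refine ⟨(-(A a y)⁻¹) • y, ?_⟩
    rw [map_smul, LinearMap.smul_apply, smul_eq_mul, h.swap y a]
    field_simp
  have hjv : ∀ v : V, j • j • v = v := fun v => by rw [← mul_smul, hjj, one_smul]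
  -- `X = im (s - 1)`
  let X : Submodule F V := LinearMap.range (gL s - LinearMap.id)
  have hXmem : ∀ v : V, s • v - v ∈ X := fun v => ⟨v, rfl⟩
  have hXti : ∀ x ∈ X, ∀ y ∈ X, f x y = 0 := by
    rintro _ ⟨v, rfl⟩ _ ⟨v', rfl⟩
    exact hti v v'
  have hXj : ∀ x ∈ X, j • x ∈ X := by
    rintro _ ⟨v, rfl⟩
    refine ⟨j • v, ?_⟩
    change s • j • v - j • v = j • (s • v - v)
    rw [smul_sub, ← mul_smul, ← mul_smul, hjs]
  obtain ⟨ζ, hζdef⟩ : ∃ ζ : W →ₗ[F] W, ∀ w, ζ w = ct Θ A a (j • tn Θ p w) :=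
    ⟨ct Θ A a ∘ₗ gL j ∘ₗ tnL Θ p, fun w => rfl⟩
  have hjta : ∀ v : V, j • tn Θ a (ct Θ A a v) = tn Θ a (ct Θ A a (j • v)) := by
    intro v
    have h3 : tn Θ a (ct Θ A a v) = t • v - v := by rw [ht]; abel
    have h4 : tn Θ a (ct Θ A a (j • v)) = t • j • v - j • v := by rw [ht]; abel
    rw [h3, h4, smul_sub, ← mul_smul, ← mul_smul, hjt]
  have hjζ : ∀ w, j • tn Θ a w = tn Θ a (ζ w) := by
    intro w
    have h3 := hjta (tn Θ p w)
    rwa [ct_tn, hp, one_smul, ← hζdef] at h3
  obtain ⟨α, hα⟩ := stab_inH h2 h hU hdim hs0 hs hH hscal ha hjM hjζ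
  have hctj : ∀ v : V, ct Θ A a (j • v) = ζ (ct Θ A a v) := by
    intro v
    apply tn_injective h ha
    rw [← hjta, hjζ]
  have hBζ : ∀ w w', B (ζ w) (ζ w') = B w w' := by
    intro w w'
    have h3 : ct Θ A a (tn Θ p w) = w := by rw [ct_tn, hp, one_smul]
    have h4 := form_smul j (tn Θ p w) (tn Θ a w')
    rw [hjζ, h.form_ct, h.form_ct, hctj, h3] at h4
    exact h4
  have hζζ : ∀ w, ζ (ζ w) = w := by
    intro w
    apply tn_injective h ha
    rw [← hjζ, ← hjζ, hjv]
  have hζinj : ∀ w, ζ w = 0 → w = 0 := fun w hw => by rw [← hζζ w, hw, map_zero]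
  have hαa : α a = a := by
    obtain ⟨w, hw⟩ := exists_ne (0 : W)
    have h3 : tn Θ (α a - a) (ζ w) = 0 := by rw [tn_sub_left, ← hα, hjζ, sub_self]
    have h4 := (tn_eq_zero h h3).resolve_right (fun h0 => hw (hζinj w h0))
    exact sub_eq_zero.1 h4
  have hαα : ∀ u, α (α u) = u := by
    intro u
    obtain ⟨w, hw⟩ := exists_ne (0 : W)
    have h3 : tn Θ (α (α u) - u) w = 0 := by
      have h4 := hjv (tn Θ u w)
      rw [hα, hα, hζζ] at h4
      rw [tn_sub_left, h4, sub_self]
    exact sub_eq_zero.1 ((tn_eq_zero h h3).resolve_right hw)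
  have hAα : ∀ u u', A (α u) (α u') = A u u' := by
    intro u u'
    obtain ⟨q, hq⟩ := exists_partner h.symB hs0
    have h4 := form_smul j (tn Θ u q) (tn Θ u' s₀)
    rw [hα, hα, h.form', h.form', hBζ, hq, mul_one, mul_one] at h4
    exact h4
  -- the range of `j - 1`
  have hrange : ∀ v : V, ∃ w, ∃ x ∈ X, j • v - v = tn Θ a w + x := by
    have key : ∀ g ∈ Subgroup.closure ({t, s} : Set G), ∀ v : V, ∃ w, ∃ x ∈ X,
        g • v - v = tn Θ a w + x := by
      intro g hg
      induction hg using Subgroup.closure_induction with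
      | mem g hg =>
        rcases hg with rfl | rfl
        · intro v
          exact ⟨ct Θ A a v, 0, X.zero_mem, by rw [ht]; abel⟩
        · intro v
          exact ⟨0, _, hXmem v, by rw [tn_zero_right, zero_add]⟩
      | one => intro v; exact ⟨0, 0, X.zero_mem, by rw [one_smul, tn_zero_right]; abel⟩
      | mul x y _ _ hx hy =>
        intro v
        obtain ⟨w, z, hz, hwz⟩ := hx (y • v)
        obtain ⟨w', z', hz', hwz'⟩ := hy v
        refine ⟨w + w', z + z', X.add_mem hz hz', ?_⟩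
        have e : (x * y) • v - v = (x • y • v - y • v) + (y • v - v) := by rw [mul_smul]; abel
        rw [e, hwz, hwz', tn_add_right]
        abel
      | inv x _ hx =>
        intro v
        obtain ⟨w, z, hz, hwz⟩ := hx (x⁻¹ • v)
        refine ⟨-w, -z, X.neg_mem hz, ?_⟩
        rw [smul_inv_smul] at hwz
        have e : x⁻¹ • v - v = -(v - x⁻¹ • v) := by abel
        rw [e, hwz, tn_neg_right]
        abel
    exact key j hj
  have h22 : ∀ c : F, 2 * c = 0 → c = 0 := fun c hc => (mul_eq_zero.1 hc).resolve_left h2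
  -- the main point
  have hstar : ∀ v : V, j • v = -v → (∀ w', ζ w' = -w' → f v (tn Θ a w') = 0) →
      ∃ w, v = tn Θ a w := by
    intro v hv hvw
    obtain ⟨w, x, hx, hwx⟩ := hrange v
    have e1 : v = tn Θ a (-(1 / 2 : F) • w) + (-(1 / 2 : F)) • x := by
      have h3 : (-2 : F) • v = tn Θ a w + x := by
        rw [← hwx, hv]; module
      rw [tn_smul_right, ← smul_add, ← h3, smul_smul]
      have : (-(1 / 2 : F)) * (-2) = 1 := by field_simp
      rw [this, one_smul]
    set w₁ := -(1 / 2 : F) • w with hw₁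
    set x₁ := (-(1 / 2 : F)) • x with hx₁def
    have hx₁ : x₁ ∈ X := X.smul_mem _ hx
    have e2 : -v = tn Θ a (ζ w₁) + j • x₁ := by
      rw [← hv]
      conv_lhs => rw [e1]
      rw [smul_add', hjζ]
    set w₂ := (1 / 2 : F) • (w₁ - ζ w₁) with hw₂
    set x₂ := (1 / 2 : F) • (x₁ - j • x₁) with hx₂def
    have hx₂ : x₂ ∈ X := X.smul_mem _ (X.sub_mem hx₁ (hXj _ hx₁))
    have e3 : v = tn Θ a w₂ + x₂ := by
      have h3 : (2 : F) • v = tn Θ a (w₁ - ζ w₁) + (x₁ - j • x₁) := by
        rw [two_smul]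
        nth_rewrite 1 [e1]
        have : v = - -v := by rw [neg_neg]
        nth_rewrite 1 [this]
        rw [e2, tn_sub_right]
        abel
      rw [hw₂, hx₂def, tn_smul_right, ← smul_add, ← h3, smul_smul]
      have : (1 / 2 : F) * 2 = 1 := by field_simp
      rw [this, one_smul]
    have hζw₂ : ζ w₂ = -w₂ := by
      rw [hw₂, map_smul, map_sub, hζζ]
      module
    have hjx₂ : j • x₂ = -x₂ := by
      have h3 : x₂ = v - tn Θ a w₂ := by rw [e3]; abel
      rw [h3, smul_sub, hv, hjζ, hζw₂, tn_neg_right]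
      abel
    have hx₂0 : x₂ = 0 := by
      have h5 : ∀ w', f x₂ (tn Θ a w') = 0 := by
        intro w'
        have h6 : f x₂ (tn Θ a w') = -f x₂ (tn Θ a (ζ w')) := by
          rw [← form_smul j, hjx₂, hjζ, sympForm_neg_left]
        have h7 : f x₂ (tn Θ a (w' - ζ w')) = 0 := by
          have h8 : x₂ = v - tn Θ a w₂ := by rw [e3]; abel
          rw [h8, sympForm_sub_left, h.form' a, h.alt, zero_mul, sub_zero]
          apply hvw
          rw [map_sub, hζζ]
          abel
        rw [tn_sub_right, sympForm_sub_right] at h7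
        apply h22
        linear_combination h6 + h7
      apply eq_zero_of_forall_sympForm_right
      intro v'
      obtain ⟨w', x', hx', hwx'⟩ := hrange v'
      have h6 : f x₂ (j • v') = -f x₂ v' := by
        have h9 := form_smul j x₂ (j • v')
        rw [hjx₂, hjv, sympForm_neg_left] at h9
        rw [← h9]
      have h7 : f x₂ (j • v' - v') = 0 := by
        rw [hwx', sympForm_add_right, h5, hXti _ hx₂ _ hx', add_zero]
      rw [sympForm_sub_right, h6] at h7
      apply h22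
      linear_combination -h7
    exact ⟨w₂, by rw [e3, hx₂0, add_zero]⟩
  -- `ζ ≠ 1`
  obtain ⟨wm, hwm0, hwm⟩ : ∃ w, w ≠ 0 ∧ ζ w = -w := by
    by_contra hcon
    push Not at hcon
    have h3 : ∀ w, ζ w = w := by
      intro w
      by_contra hw
      apply hcon (w - ζ w) (fun h0 => hw (sub_eq_zero.1 h0).symm)
      rw [map_sub, hζζ]
      abel
    apply hj1
    apply Subtype.ext
    apply Matrix.mulVec_injective
    funext v
    rw [Submonoid.coe_one, Matrix.one_mulVec]
    change j • v = v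
    have h4 : j • (v - j • v) = -(v - j • v) := by
      rw [smul_sub, hjv]; abel
    obtain ⟨w, hw⟩ := hstar _ h4 (fun w' hw' => by
      by_cases hw0 : w' = 0
      · rw [hw0, tn_zero_right, sympForm_zero_right]
      · exact absurd hw' (hcon w' hw0))
    rw [hw, hjζ, h3] at h4
    have h5 : (2 : F) • tn Θ a w = 0 := by
      rw [two_smul]
      nth_rewrite 1 [h4]
      abel
    have h6 := (smul_eq_zero.1 h5).resolve_left h2
    rw [h6, sub_eq_zero] at hw
    exact hw.symm
  have hline : ∀ u, α u = u → A u a = 0 → ∃ c : F, u = c • a := by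
    intro u hu hua
    obtain ⟨w, hw⟩ := hstar (tn Θ u wm) (by rw [hα, hu, hwm, tn_neg_right]) (fun w' _ => by
      rw [h.form', hua, zero_mul])
    exact mem_line_of_tn h ha hwm0 hw
  -- `α ≠ 1`
  obtain ⟨um, hum0, hum⟩ : ∃ u, u ≠ 0 ∧ α u = -u := by
    by_contra hcon
    push Not at hcon
    have h3 : ∀ u, α u = u := by
      intro u
      by_contra hu
      apply hcon (u - α u) (fun h0 => hu (sub_eq_zero.1 h0).symm)
      rw [map_sub, hαα]
      abel
    have h4 : LinearMap.ker (A a) ≤ Submodule.span F {a} := by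
      intro u hu
      rw [LinearMap.mem_ker] at hu
      obtain ⟨c, hc⟩ := hline u (h3 u) (by rw [h.swap, hu, neg_zero])
      rw [hc]
      exact Submodule.smul_mem _ _ (Submodule.mem_span_singleton_self a)
    have h5 := (Submodule.finrank_mono h4).trans (finrank_span_le_card ({a} : Set U))
    have h6 := (A a).finrank_range_add_finrank_ker
    have h7 : Module.finrank F (LinearMap.range (A a)) ≤ 1 := by
      refine (Submodule.finrank_le _).trans ?_
      rw [Module.finrank_self]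
    simp only [Set.toFinset_singleton, Finset.card_singleton] at h5
    omega
  have huma : A um a = 0 := by
    have h3 := hAα um a
    rw [hum, hαa, map_neg, LinearMap.neg_apply] at h3
    apply h22
    linear_combination -h3
  have hζ : ∀ w, ζ w = -w := by
    have h3 : ∀ w, ζ w = w → w = 0 := by
      intro w hw
      by_contra hw0
      obtain ⟨w', hw'⟩ := hstar (tn Θ um w) (by rw [hα, hum, hw, tn_neg_left]) (fun w' _ => by
        rw [h.form', huma, zero_mul])
      obtain ⟨c, hc⟩ := mem_line_of_tn h ha hw0 hw'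
      have h4 : um = -um := by
        rw [← hum]
        conv_lhs => rw [hc]
        rw [hum]
        have h5 : α um = um := by rw [hc, map_smul, hαa]
        rw [hum] at h5
        rw [h5, hc]
      have h5 : (2 : F) • um = 0 := by
        rw [two_smul]
        nth_rewrite 1 [h4]
        abel
      exact hum0 ((smul_eq_zero.1 h5).resolve_left h2)
    intro w
    have h4 := h3 (w + ζ w) (by rw [map_add, hζζ]; abel)
    exact eq_neg_of_add_eq_zero_right h4
  refine ⟨α, fun u w => ?_, hαa, um, hum0, hum⟩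
  rw [hα, hζ, tn_neg_right]

/-- The linear representation of the symplectic group. -/
noncomputable def gLhom : G →* Module.End F (Fin m ⊕ Fin m → F) where
  toFun g := gL g
  map_one' := by
    apply LinearMap.ext
    intro v
    exact one_smul _ _
  map_mul' g k := by
    apply LinearMap.ext
    intro v
    exact mul_smul g k v

theorem gLhom_apply (g : G) (v : V) : gLhom g v = g • v := rfl

theorem ext_smul {g k : G} (hgk : ∀ v : V, g • v = k • v) : g = k := by
  apply Subtype.ext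
  apply Matrix.mulVec_injective
  funext v
  exact hgk v

theorem gLhom_injective : Function.Injective (gLhom : G →* Module.End F (Fin m ⊕ Fin m → F)) := by
  intro g k hgk
  apply ext_smul
  intro v
  exact congrArg (fun T : Module.End F (Fin m ⊕ Fin m → F) => T v) hgk

/-- Two commuting elements of order dividing `p` generate a `p`-group. -/
theorem isPGroup_pair {Γ : Type*} [Group Γ] {p : ℕ} {x y : Γ} (hx : x ^ p = 1)
    (hy : y ^ p = 1) (hxy : x * y = y * x) : IsPGroup p (Subgroup.closure ({x, y} : Set Γ)) := by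
  have key : ∀ z : Γ, z ^ p = 1 → IsPGroup p (Subgroup.zpowers z) := by
    rintro z hz ⟨_, n, rfl⟩
    refine ⟨1, ?_⟩
    apply Subtype.ext
    change ((z ^ n) ^ p ^ 1 : Γ) = 1
    rw [pow_one, ← zpow_natCast, ← zpow_mul, mul_comm, zpow_mul, zpow_natCast, hz, one_zpow]
  have h1 : Subgroup.closure ({x, y} : Set Γ) = Subgroup.zpowers x ⊔ Subgroup.zpowers y := by
    rw [Subgroup.zpowers_eq_closure, Subgroup.zpowers_eq_closure, ← Subgroup.closure_union]
    rfl
  rw [h1]
  refine IsPGroup.to_sup_of_normal_right' (key x hx) (key y hy) ?_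
  rw [Subgroup.zpowers_le]
  rw [Subgroup.mem_normalizer_iff]
  intro z
  constructor
  · rintro ⟨n, rfl⟩
    refine ⟨n, ?_⟩
    have : Commute x y := hxy
    have h3 := this.zpow_right n
    change y ^ n = x * y ^ n * x⁻¹
    rw [h3.eq, mul_inv_cancel_right]
  · rintro ⟨n, hn⟩
    refine ⟨n, ?_⟩
    have : Commute x y := hxy
    have h3 := this.zpow_right n
    change y ^ n = z
    have h4 : z = x⁻¹ * (x * z * x⁻¹) * x := by group
    rw [h4, ← hn]
    change y ^ n = x⁻¹ * y ^ n * x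
    rw [mul_assoc, ← h3.eq, inv_mul_cancel_left]

theorem pow_char_tU {p : ℕ} [CharP F p] (h : TS A B Θ) {c : U} {r : G}
    (hr : ∀ v, r • v = v + tn Θ c (ct Θ A c v)) : r ^ p = 1 := by
  have h3 : ∀ (n : ℕ) (v : V), (r ^ n) • v = v + (n : F) • tn Θ c (ct Θ A c v) := by
    intro n
    induction n with
    | zero => intro v; rw [pow_zero, one_smul, Nat.cast_zero, zero_smul, add_zero]
    | succ n ih =>
      intro v
      rw [pow_succ, mul_smul, ih, hr, map_add, ct_tn, h.alt, zero_smul, add_zero, Nat.cast_succ,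
        add_smul, one_smul]
      abel
  apply ext_smul
  intro v
  have h4 := h3 p v
  rw [CharP.cast_eq_zero, zero_smul, add_zero] at h4
  rw [h4, one_smul]

/-- **Overgroups of `Sp(U) ⊗ O(W)`** (scalar alternative): they respect the tensor structure. -/
theorem inH_of_mem [Finite F] {p : ℕ} [hp : Fact p.Prime] [CharP F p] (hp2 : p ≠ 2)
    (h : TS A B Θ) [FiniteDimensional F W] [Nontrivial W]
    [FiniteDimensional F U] (hU : 3 ≤ Module.finrank F U)
    (hdim : 3 ≤ Module.finrank F W) {s₀ : W} (hs0 : s₀ ≠ 0) (hs : B s₀ s₀ = 0)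
    (hH : ∀ g, InH Θ g → g ∈ M)
    (hscal : ∀ (x : U) (S : W →ₗ[F] W), x ≠ 0 → InAt Θ A M x S → ∃ c : F, S = c • LinearMap.id)
    {g : G} (hg : g ∈ M) : InH Θ g := by
  by_contra hgH
  have h2 : (2 : F) ≠ 0 := by
    intro h0
    have h3 : p ∣ 2 := (CharP.cast_eq_zero_iff F p 2).1 (by exact_mod_cast h0)
    exact hp2 ((Nat.prime_dvd_prime_iff_eq hp.out Nat.prime_two).1 h3)
  have : Nontrivial U := Module.nontrivial_of_finrank_pos (R := F) (by omega)
  have : Finite G := inferInstance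
  obtain ⟨a, ha⟩ := exists_ne (0 : U)
  obtain ⟨t, htH, htv'⟩ := h.exists_tU a 1
  have ht : ∀ v, t • v = v + tn Θ a (ct Θ A a v) := fun v => by rw [htv', one_smul]
  have htM : t ∈ M := hH t htH
  have hquad : ∀ k : G, (gLhom (k * t * k⁻¹) - 1) ^ 2 = (0 : Module.End F (Fin m ⊕ Fin m → F)) := by
    intro k
    have h3 : ∀ v : V, (k * t * k⁻¹) • v = v + k • tn Θ a (ct Θ A a (k⁻¹ • v)) := by
      intro v
      rw [mul_smul, mul_smul, ht, smul_add', smul_inv_smul]
    apply LinearMap.ext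
    intro v
    rw [pow_two, Module.End.mul_apply, LinearMap.sub_apply, LinearMap.sub_apply, Module.End.one_apply,
      Module.End.one_apply, gLhom_apply, gLhom_apply, h3 v, add_sub_cancel_left, h3, inv_smul_smul,
      ct_tn, h.alt, zero_smul, tn_zero_right, smul_zero, add_zero, sub_self, LinearMap.zero_apply]
  -- the conjugate
  set s := g * t * g⁻¹ with hsdef
  have hsM : s ∈ M := M.mul_mem (M.mul_mem hg htM) (M.inv_mem hg)
  have hsv : ∀ v : V, s • v = v + g • tn Θ a (ct Θ A a (g⁻¹ • v)) := by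
    intro v
    rw [hsdef, mul_smul, mul_smul, ht, smul_add', smul_inv_smul]
  have hnp : ¬ IsPGroup p (Subgroup.closure ({t, s} : Set G)) := fun hpg =>
    hgH (inH_of_pgroup h2 h hU hdim hs0 hs hH hscal ha ha ht ht hg hpg)
  have htq : (gLhom t - 1) ^ 2 = (0 : Module.End F (Fin m ⊕ Fin m → F)) := by
    have := hquad 1
    rwa [one_mul, inv_one, mul_one] at this
  obtain ⟨j, hj, hj1, hjj, hjt, hjs⟩ := QuadPair.exists_involution hp2
    (gLhom : G →* Module.End F (Fin m ⊕ Fin m → F)) gLhom_injective htq (hquad g) hnp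
  have hjM : j ∈ M := by
    have : Subgroup.closure ({t, g * t * g⁻¹} : Set G) ≤ M := by
      rw [Subgroup.closure_le]
      rintro x (rfl | rfl)
      · exact htM
      · exact hsM
    exact this hj
  have hti : ∀ v v' : V, f (s • v - v) (s • v' - v') = 0 := by
    intro v v'
    rw [hsv, hsv, add_sub_cancel_left, add_sub_cancel_left, form_smul, h.form', h.alt, zero_mul]
  obtain ⟨α, hα, hαa, um, hum0, hum⟩ := involution_action h2 h hU hdim hs0 hs hH hscal ha ht hti hj
    hj1 hjj hjt hjs hjM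
  -- the same from the point of view of `g`
  have hti' : ∀ v v' : V, f ((g⁻¹ * t * g) • v - v) ((g⁻¹ * t * g) • v' - v') = 0 := by
    intro v v'
    have h3 : ∀ v : V, (g⁻¹ * t * g) • v = v + g⁻¹ • tn Θ a (ct Θ A a (g • v)) := by
      intro v
      rw [mul_smul, mul_smul, ht, smul_add', inv_smul_smul]
    rw [h3, h3, add_sub_cancel_left, add_sub_cancel_left, form_smul, h.form', h.alt, zero_mul]
  have hj' : g⁻¹ * j * g ∈ Subgroup.closure ({t, g⁻¹ * t * g} : Set G) := by
    have h3 : (Subgroup.closure ({t, g * t * g⁻¹} : Set G)).map (MulAut.conj g⁻¹).toMonoidHom =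
        Subgroup.closure ({t, g⁻¹ * t * g} : Set G) := by
      rw [MonoidHom.map_closure, Set.image_pair]
      congr 1
      have e1 : (MulAut.conj g⁻¹).toMonoidHom t = g⁻¹ * t * g := by
        change g⁻¹ * t * g⁻¹⁻¹ = _
        rw [inv_inv]
      have e2 : (MulAut.conj g⁻¹).toMonoidHom (g * t * g⁻¹) = t := by
        change g⁻¹ * (g * t * g⁻¹) * g⁻¹⁻¹ = _
        group
      rw [e1, e2, Set.pair_comm]
    rw [← h3]
    refine ⟨j, hj, ?_⟩
    change g⁻¹ * j * g⁻¹⁻¹ = _
    rw [inv_inv]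
  obtain ⟨α', hα', hα'a, -⟩ := involution_action h2 h hU hdim hs0 hs hH hscal ha ht hti' hj'
    (fun h0 => hj1 (by
      have : j = g * (g⁻¹ * j * g) * g⁻¹ := by group
      rw [this, h0]; group))
    (by
      have : g⁻¹ * j * g * (g⁻¹ * j * g) = g⁻¹ * (j * j) * g := by group
      rw [this, hjj]; group)
    (by
      have e1 : g⁻¹ * j * g * t = g⁻¹ * (j * (g * t * g⁻¹)) * g := by group
      have e2 : t * (g⁻¹ * j * g) = g⁻¹ * ((g * t * g⁻¹) * j) * g := by group
      rw [e1, e2, hjs])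
    (by
      have e1 : g⁻¹ * j * g * (g⁻¹ * t * g) = g⁻¹ * (j * t) * g := by group
      have e2 : g⁻¹ * t * g * (g⁻¹ * j * g) = g⁻¹ * (t * j) * g := by group
      rw [e1, e2, hjt])
    (M.mul_mem (M.mul_mem (M.inv_mem hg) hjM) hg)
  have hjg : ∀ w, j • g • tn Θ a w = -(g • tn Θ a w) := by
    intro w
    have h3 := hα' a w
    rw [hα'a, mul_smul, mul_smul, inv_smul_eq_iff, smul_neg] at h3
    exact h3
  have hperp : ∀ w w', f (g • tn Θ a w) (tn Θ um w') = 0 := by
    intro w w'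
    have h3 := form_smul j (g • tn Θ a w) (tn Θ um w')
    rw [hjg, hα, hum, tn_neg_left, neg_neg, sympForm_neg_left] at h3
    apply (mul_eq_zero.1 (?_ : (2 : F) * _ = 0)).resolve_left h2
    linear_combination -h3
  -- `t_um` commutes with `s`
  obtain ⟨r, -, hrv'⟩ := h.exists_tU um 1
  have hr : ∀ v, r • v = v + tn Θ um (ct Θ A um v) := fun v => by rw [hrv', one_smul]
  have hc1 : ∀ w, ct Θ A um (g • tn Θ a w) = 0 := by
    intro w
    apply h.symB.nd
    intro w'
    rw [← h.form_ct, hperp]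
  have hc2 : ∀ w, ct Θ A a (g⁻¹ • tn Θ um w) = 0 := by
    intro w
    apply h.symB.nd
    intro w'
    rw [← h.form_ct, ← form_smul g, smul_inv_smul, sympForm_swap, hperp, neg_zero]
  have hcomm : r * s = s * r := by
    apply ext_smul
    intro v
    have e1 : (r * s) • v = r • (s • v) := mul_smul _ _ _
    have e2 : (s * r) • v = s • (r • v) := mul_smul _ _ _
    rw [e1, e2, hr (s • v), hsv (r • v), hr v, hsv v, map_add, hc1, smul_add', map_add, hc2,
      add_zero, add_zero]
    abel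
  have hspow : s ^ p = 1 := by
    rw [hsdef, conj_pow, pow_char_tU h ht, mul_one, mul_inv_cancel]
  exact hgH (inH_of_pgroup h2 h hU hdim hs0 hs hH hscal hum0 ha hr ht hg
    (isPGroup_pair (pow_char_tU h hr) hspow hcomm))

end Cfsg.Agent.H879.TenS
end

-- part: H879/TenWrap
section
/-!
# `Sp_{n₁}(q) ⊗ O_{n₂}(q)` is maximal in `Sp_{2m}(q)` for `q` odd, `n₁ ≥ 3`, `n₂ ≥ 3` (helper879)

Every `m`; the only exclusion is `q = 3 = n₂`.
-/

set_option autoImplicit false
set_option linter.unusedSectionVars false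

open Cfsg Cfsg.Geo Matrix
open scoped TensorProduct
open Cfsg.Agent.ClassicalGeometry.SympBasic Cfsg.Agent.ClassicalGeometry.SympSiegel
open Cfsg.Agent.H875 Cfsg.Agent.H875.Ten

namespace Cfsg.Agent.H879.TenS

variable {F : Type*} [Field F]

/-- `F^n₁ ⊗ F^n₂ ≃ F^(n₁ × n₂)` -/
noncomputable def tpe (F : Type*) [Field F] (n₁ n₂ : ℕ) :
    (Fin n₁ → F) ⊗[F] (Fin n₂ → F) ≃ₗ[F] (Fin n₁ × Fin n₂ → F) :=
  (TensorProduct.piScalarRight F F (Fin n₁ → F) (Fin n₂)).trans
    { toFun := fun v p => v p.2 p.1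
      map_add' := fun _ _ => rfl
      map_smul' := fun _ _ => rfl
      invFun := fun v j i => v (i, j)
      left_inv := fun _ => rfl
      right_inv := fun _ => rfl }

theorem tpe_tmul {n₁ n₂ : ℕ} (u : Fin n₁ → F) (w : Fin n₂ → F) :
    tpe F n₁ n₂ (u ⊗ₜ w) = Cfsg.Agent.H883.Tensor.tmul u w := by
  funext p
  simp [tpe, Cfsg.Agent.H883.Tensor.tmul, mul_comm]

/-- The identification of `F^n₁ ⊗ F^n₂` with `F^{2m}` given by `e` and `P`. -/
noncomputable def thE {m n₁ n₂ : ℕ} (e : (Fin m ⊕ Fin m) ≃ Fin n₁ × Fin n₂)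
    (P : Matrix.GeneralLinearGroup (Fin m ⊕ Fin m) F) :
    (Fin n₁ → F) ⊗[F] (Fin n₂ → F) ≃ₗ[F] (Fin m ⊕ Fin m → F) :=
  (tpe F n₁ n₂).trans (Cfsg.Agent.H883.Tensor.vec e P)

theorem tn_thE {m n₁ n₂ : ℕ} (e : (Fin m ⊕ Fin m) ≃ Fin n₁ × Fin n₂)
    (P : Matrix.GeneralLinearGroup (Fin m ⊕ Fin m) F) (u : Fin n₁ → F) (w : Fin n₂ → F) :
    tn (thE e P) u w = Cfsg.Agent.H883.Tensor.pure e P u w := by
  rw [tn, thE, LinearEquiv.trans_apply, tpe_tmul]
  rfl

/-- an injective endomorphism of `F^n` as an element of `GL_n` -/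
theorem exists_gl {n : ℕ} (a : (Fin n → F) →ₗ[F] (Fin n → F)) (ha : ∀ x, a x = 0 → x = 0) :
    ∃ g : Matrix.GeneralLinearGroup (Fin n) F, ∀ x, (g : Matrix (Fin n) (Fin n) F) *ᵥ x = a x := by
  have hinj : Function.Injective a := (injective_iff_map_eq_zero a).2 ha
  have hu : IsUnit (LinearMap.toMatrix' a) := by
    rw [Matrix.isUnit_iff_isUnit_det]
    have h1 : LinearMap.det a ≠ 0 := by
      intro h0
      have := LinearMap.bot_lt_ker_of_det_eq_zero h0
      rw [LinearMap.ker_eq_bot.2 hinj] at this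
      exact lt_irrefl _ this
    rw [LinearMap.det_toMatrix']
    exact h1.isUnit
  obtain ⟨g, hg⟩ := hu
  refine ⟨g, fun x => ?_⟩
  rw [hg, ← Matrix.toLin'_apply, Matrix.toLin'_toMatrix']

theorem inH_iff {m n₁ n₂ : ℕ} (hn₁ : 1 ≤ n₁) (hn₂ : 1 ≤ n₂)
    {e : (Fin m ⊕ Fin m) ≃ Fin n₁ × Fin n₂}
    {P : Matrix.GeneralLinearGroup (Fin m ⊕ Fin m) F} {A : LinearMap.BilinForm F (Fin n₁ → F)}
    {B : LinearMap.BilinForm F (Fin n₂ → F)} (h : TS A B (thE e P))
    (g : Matrix.symplecticGroup (Fin m) F) :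
    InH (thE e P) g ↔ toGL m F g ∈ tensorProductSubgroup n₁ n₂ e P := by
  have : Nonempty (Fin n₁) := ⟨⟨0, hn₁⟩⟩
  have : Nonempty (Fin n₂) := ⟨⟨0, hn₂⟩⟩
  rw [Cfsg.Agent.H883.Tensor.mem_tensorProductSubgroup_iff]
  constructor
  · rintro ⟨a, b, hab⟩
    obtain ⟨u₀, hu₀⟩ := exists_ne (0 : Fin n₁ → F)
    obtain ⟨w₀, hw₀⟩ := exists_ne (0 : Fin n₂ → F)
    obtain ⟨a', ha'⟩ := exists_gl a fun x hx => by
      by_contra hx0
      have h1 := hab x w₀
      rw [hx, tn_zero_left, smul_eq_zero_iff'] at h1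
      rcases tn_eq_zero h h1 with h2 | h2
      · exact hx0 h2
      · exact hw₀ h2
    obtain ⟨b', hb'⟩ := exists_gl b fun x hx => by
      by_contra hx0
      have h1 := hab u₀ x
      rw [hx, tn_zero_right, smul_eq_zero_iff'] at h1
      rcases tn_eq_zero h h1 with h2 | h2
      · exact hu₀ h2
      · exact hx0 h2
    refine ⟨a', b', fun x y => ?_⟩
    rw [ha', hb', ← tn_thE, ← tn_thE, toGL_mulVec, hab]
  · rintro ⟨a, b, hab⟩
    refine ⟨Matrix.toLin' (a : Matrix (Fin n₁) (Fin n₁) F), Matrix.toLin' (b : Matrix (Fin n₂) (Fin n₂) F), fun u w => ?_⟩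
    rw [tn_thE, tn_thE, Matrix.toLin'_apply, Matrix.toLin'_apply, ← hab, toGL_mulVec]

/-- The tensor structure of a tensor form structure. -/
theorem exists_TS {m n₁ n₂ : ℕ} {e : (Fin m ⊕ Fin m) ≃ Fin n₁ × Fin n₂}
    {P : Matrix.GeneralLinearGroup (Fin m ⊕ Fin m) F}
    {f₁ : (Fin n₁ → F) → (Fin n₁ → F) → F} {f₂ : (Fin n₂ → F) → (Fin n₂ → F) → F}
    (hf₁ : Cfsg.Geo.IsSymplecticForm f₁) (hf₂ : Cfsg.Geo.IsSymmetricForm f₂)
    (hT : Cfsg.Geo.IsTensorFormStructure id (Cfsg.sympForm m F) f₁ f₂ e P) :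
    ∃ (A : LinearMap.BilinForm F (Fin n₁ → F)) (B : LinearMap.BilinForm F (Fin n₂ → F)) (c : F),
      c ≠ 0 ∧ (∀ x y, A x y = f₁ x y) ∧ (∀ x y, B x y = c * f₂ x y) ∧ TS A B (thE e P) := by
  obtain ⟨c, hc, hform⟩ := Cfsg.Agent.H883.Tensor.form_pure hf₁.bilinear hf₂.bilinear hT
  let A : LinearMap.BilinForm F (Fin n₁ → F) :=
    LinearMap.mk₂ F f₁ hf₁.bilinear.add_left
      (fun c x v => by rw [hf₁.bilinear.smul_left, smul_eq_mul]) hf₁.bilinear.add_right
      (fun c v x => by rw [hf₁.bilinear.smul_right, smul_eq_mul])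
  let B : LinearMap.BilinForm F (Fin n₂ → F) :=
    LinearMap.mk₂ F (fun x y => c * f₂ x y)
      (fun x y v => by rw [hf₂.bilinear.add_left, mul_add])
      (fun c x v => by rw [hf₂.bilinear.smul_left, smul_eq_mul]; ring)
      (fun x y v => by rw [hf₂.bilinear.add_right, mul_add])
      (fun c v x => by rw [hf₂.bilinear.smul_right, smul_eq_mul]; ring)
  have hA : ∀ x y, A x y = f₁ x y := fun _ _ => rfl
  have hB : ∀ x y, B x y = c * f₂ x y := fun _ _ => rfl
  refine ⟨A, B, c, hc, hA, hB, ⟨fun u => ?_, fun u hu => ?_, ⟨fun x y => ?_, fun x hx => ?_⟩, fun u w u' w' => ?_⟩⟩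
  · rw [hA, hf₁.alternating]
  · by_contra hu0
    obtain ⟨y, hy⟩ := (hf₁.nondegenerate u hu0).2
    exact hy (by rw [← hA, hu])
  · rw [hB, hB, hf₂.symm]
  · by_contra hx0
    obtain ⟨y, hy⟩ := (hf₂.nondegenerate x hx0).2
    have h1 := hx y
    rw [hB] at h1
    exact hy ((mul_eq_zero.1 h1).resolve_left hc)
  · change sympForm m F (tn (thE e P) u w) (tn (thE e P) u' w') = _
    rw [tn_thE, tn_thE, hform, hA, hB]
    ring

theorem two_ne_zero_of_odd [Fintype F] (hodd : Odd (Fintype.card F)) : (2 : F) ≠ 0 := by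
  intro h
  have h3 : ringChar F = 2 := by
    have h4 : ringChar F ∣ 2 := (ringChar.spec F 2).mp (by exact_mod_cast h)
    rcases (Nat.dvd_prime Nat.prime_two).mp h4 with h5 | h5
    · exact absurd h5 (CharP.ringChar_ne_one)
    · exact h5
  have := FiniteField.even_card_of_char_two h3
  rw [Nat.odd_iff] at hodd
  omega

/-- A non-zero singular vector. -/
theorem exists_sing [Fintype F] (h2 : (2 : F) ≠ 0) {n : ℕ} (hn : 3 ≤ n)
    {B : LinearMap.BilinForm F (Fin n → F)} (hB : SymB B) : ∃ s : Fin n → F, s ≠ 0 ∧ B s s = 0 := by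
  have hQ : Cfsg.Agent.H929.QF (fun x : Fin n → F => B x x / 2) (fun x y => B x y) :=
    { smul := fun c v => by simp only [map_smul, LinearMap.smul_apply, smul_eq_mul]; ring
      add := fun x y => by
        simp only [map_add, LinearMap.add_apply, hB.symm y x]
        field_simp
        ring
      add_left := fun x y v => by simp only [map_add, LinearMap.add_apply]
      smul_left := fun c x v => by simp only [map_smul, LinearMap.smul_apply, smul_eq_mul] }
  have hnd : ∀ x ∈ (⊤ : Submodule F (Fin n → F)), x ≠ 0 →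
      ∃ y ∈ (⊤ : Submodule F (Fin n → F)), B x y ≠ 0 := by
    intro x _ hx
    by_contra hc
    push Not at hc
    exact hx (hB.nd x fun y => hc y trivial)
  obtain ⟨s, -, hs0, hs⟩ := hQ.exists_singular h2 ⊤ hnd (by
    rw [finrank_top, Module.finrank_fintype_fun_eq_card, Fintype.card_fin]; omega)
  refine ⟨s, hs0, ?_⟩
  have hs' : B s s / 2 = 0 := hs
  exact (div_eq_zero_iff.1 hs').resolve_right h2

theorem exists_sq_ne_one [Fintype F] (hodd : Odd (Fintype.card F)) (h3 : Fintype.card F ≠ 3) :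
    ∃ t : F, t ≠ 0 ∧ t ^ 2 ≠ 1 := by
  classical
  by_contra hc
  push Not at hc
  have hsub : (Finset.univ : Finset F) ⊆ {0, 1, -1} := by
    intro t _
    by_cases ht : t = 0
    · simp [ht]
    · have h1 := hc t ht
      rcases (sq_eq_one_iff.1 h1) with h4 | h4
      · simp [h4]
      · simp [h4]
  have hle := Finset.card_le_card hsub
  rw [Finset.card_univ] at hle
  have h4 : ({0, 1, -1} : Finset F).card ≤ 3 := Finset.card_le_three
  have h5 : 1 < Fintype.card F := Fintype.one_lt_card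
  obtain ⟨k, hk⟩ := hodd
  omega

/-- **`Sp_{n₁}(q) ⊗ O_{n₂}(q)` is maximal in `Sp_{2m}(q)`**, `q` odd, `n₁ ≥ 3`, `n₂ ≥ 3`,
`(q, n₂) ≠ (3, 3)`, every `m`. -/
theorem tensor_maximal [Fintype F] {m n₁ n₂ : ℕ} (hn₁ : 3 ≤ n₁) (hn₂ : 3 ≤ n₂)
    (hodd : Odd (Fintype.card F)) (hex : ¬ (Fintype.card F = 3 ∧ n₂ = 3))
    (e : (Fin m ⊕ Fin m) ≃ Fin n₁ × Fin n₂) (P : Matrix.GeneralLinearGroup (Fin m ⊕ Fin m) F)
    (f₁ : (Fin n₁ → F) → (Fin n₁ → F) → F) (f₂ : (Fin n₂ → F) → (Fin n₂ → F) → F)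
    (hf₁ : Cfsg.Geo.IsSymplecticForm f₁) (hf₂ : Cfsg.Geo.IsSymmetricForm f₂)
    (hT : Cfsg.Geo.IsTensorFormStructure id (Cfsg.sympForm m F) f₁ f₂ e P) :
    Cfsg.Geo.IsMaximalIn (Cfsg.spGL m F)
      (Cfsg.Geo.tensorProductSubgroup n₁ n₂ e P ⊓ Cfsg.spGL m F) := by
  have h2 := two_ne_zero_of_odd hodd
  obtain ⟨A, B, c, hc, hA, hB, h⟩ := exists_TS hf₁ hf₂ hT
  have hm : 1 ≤ m := by
    have h1 := Fintype.card_congr e
    simp only [Fintype.card_sum, Fintype.card_fin, Fintype.card_prod] at h1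
    have : 0 < n₁ * n₂ := Nat.mul_pos (by omega) (by omega)
    omega
  obtain ⟨s₀, hs0, hs⟩ := exists_sing h2 hn₂ h.symB
  have hfU : Module.finrank F (Fin n₁ → F) = n₁ := by
    rw [Module.finrank_fintype_fun_eq_card, Fintype.card_fin]
  have hfW : Module.finrank F (Fin n₂ → F) = n₂ := by
    rw [Module.finrank_fintype_fun_eq_card, Fintype.card_fin]
  have : Nontrivial (Fin n₂ → F) := Module.nontrivial_of_finrank_pos (R := F) (by omega)
  obtain ⟨p, hp⟩ := CharP.exists F
  have hpp : p.Prime := CharP.char_is_prime F p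
  have hfp : Fact p.Prime := ⟨hpp⟩
  have hp2 : p ≠ 2 := by
    rintro rfl
    exact h2 (by exact_mod_cast CharP.cast_eq_zero F 2)
  refine Cfsg.Agent.H875.isMaximalIn_of _ ?_ ?_
  · have h3 := Cfsg.Agent.H931.spGL_not_le_tensorProductSubgroup (F := F) hm (by omega : 2 ≤ n₁)
      (by omega : 2 ≤ n₂) e P
    obtain ⟨g, hg, hg'⟩ := SetLike.not_le_iff_exists.mp h3
    rw [← Cfsg.Agent.H875.toGL_range] at hg
    obtain ⟨g₀, rfl⟩ := hg
    exact ⟨g₀, hg'⟩
  · intro M hKM hprop
    have hH : ∀ g, InH (thE e P) g → g ∈ M := fun g hg =>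
      hKM ((inH_iff (by omega) (by omega) h g).1 hg)
    rcases h.scalar_or_full h2 (by rw [hfW]; exact hn₂) (fun h3 => exists_sq_ne_one hodd fun h4 => hex
      ⟨h4, by rw [← hfW]; exact h3⟩) hs0 hs hH with hscal | hfull
    · exfalso
      obtain ⟨g, hg, hgK⟩ := hprop
      apply hgK
      rw [← inH_iff (by omega) (by omega) h]
      exact inH_of_mem hp2 h (by rw [hfU]; exact hn₁) (by rw [hfW]; exact hn₂) hs0 hs hH hscal hg
    · exact Cfsg.Agent.H875.eq_top_of_full hfull

end Cfsg.Agent.H879.TenS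
end
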